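import Mathlib
import Cfsg.Agent.Lib.Helper79.SquareSum
import Cfsg.Agent.Lib.Helper78.HeightZero
import Cfsg.Agent.S4676

/-!
# 2-blocks of defect two have exactly four characters

From Brauer's formula for the `p`-part of `∑ χ(1)²` and the weighted Brauer–Feit bound.
-/

set_option autoImplicit false

namespace Cfsg.Agent.Lib.Helper79

open Cfsg Cfsg.Agent.Lib.Helper16

section KleinCount

variable {G : Type*} [Group G] [Fintype G] {M : Ideal Cfsg.AlgInt}

/-- arithmetic core: odd parts `o`, heights `h`, a finite index set -/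
theorem card_eq_four_of_sums {ι : Type*} (s : Finset ι) (h o : ι → ℕ)
    (ho : ∀ i ∈ s, ¬ 2 ∣ o i) (h0 : ∃ i ∈ s, h i = 0)
    (hval : (∑ i ∈ s, 4 ^ h i * o i ^ 2).factorization 2 = 2)
    (hbf : ∑ i ∈ s, 4 ^ h i ≤ 5) : s.card = 4 := by
  classical
  obtain ⟨i₀, hi₀, hh₀⟩ := h0
  -- the sum is divisible by 4
  have hpos : ∑ i ∈ s, 4 ^ h i * o i ^ 2 ≠ 0 := by
    intro hz
    rw [hz] at hval
    simp at hval
  have h4 : 4 ∣ ∑ i ∈ s, 4 ^ h i * o i ^ 2 := by
    have := Nat.ordProj_dvd (∑ i ∈ s, 4 ^ h i * o i ^ 2) 2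
    rw [hval] at this
    exact this
  -- modulo 4 the sum is the number of height zero indices
  have hmod : (∑ i ∈ s, 4 ^ h i * o i ^ 2) % 4 = (s.filter (fun i => h i = 0)).card % 4 := by
    rw [Finset.sum_nat_mod, Finset.card_eq_sum_ones, Finset.sum_filter]
    conv_rhs => rw [Finset.sum_nat_mod]
    congr 1
    refine Finset.sum_congr rfl fun i hi => ?_
    by_cases hz : h i = 0
    · rw [if_pos hz, hz, pow_zero, one_mul]
      have hodd : o i % 2 = 1 := by
        have := ho i hi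
        omega
      have : o i ^ 2 % 4 = 1 := by
        have h2 : o i % 4 = 1 ∨ o i % 4 = 3 := by omega
        rcases h2 with h2 | h2 <;> simp [pow_two, Nat.mul_mod, h2]
      rw [this]
    · rw [if_neg hz]
      obtain ⟨k, hk⟩ := Nat.exists_eq_succ_of_ne_zero hz
      rw [hk, pow_succ]
      have : 4 ^ k * 4 * o i ^ 2 = 4 * (4 ^ k * o i ^ 2) := by ring
      rw [this, Nat.mul_mod_right]
      norm_num
  have hk0 : 4 ∣ (s.filter (fun i => h i = 0)).card := by
    have := Nat.mod_eq_zero_of_dvd h4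
    rw [hmod] at this
    exact Nat.dvd_of_mod_eq_zero this
  have hk1 : 0 < (s.filter (fun i => h i = 0)).card :=
    Finset.card_pos.mpr ⟨i₀, Finset.mem_filter.mpr ⟨hi₀, hh₀⟩⟩
  -- Brauer–Feit
  have hsplit : ∑ i ∈ s, 4 ^ h i =
      ∑ i ∈ s.filter (fun i => h i = 0), 4 ^ h i +
        ∑ i ∈ s.filter (fun i => ¬ h i = 0), 4 ^ h i :=
    (Finset.sum_filter_add_sum_filter_not s _ _).symm
  have hA : ∑ i ∈ s.filter (fun i => h i = 0), 4 ^ h i = (s.filter (fun i => h i = 0)).card := by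
    rw [Finset.card_eq_sum_ones]
    refine Finset.sum_congr rfl fun i hi => ?_
    rw [(Finset.mem_filter.mp hi).2, pow_zero]
  have hBge : 4 * (s.filter (fun i => ¬ h i = 0)).card ≤
      ∑ i ∈ s.filter (fun i => ¬ h i = 0), 4 ^ h i := by
    rw [Finset.card_eq_sum_ones, Finset.mul_sum]
    refine Finset.sum_le_sum fun i hi => ?_
    have hz := (Finset.mem_filter.mp hi).2
    have : 4 ^ 1 ≤ 4 ^ h i := Nat.pow_le_pow_right (by norm_num) (Nat.one_le_iff_ne_zero.mpr hz)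
    simpa using this
  have hcard : s.card = (s.filter (fun i => h i = 0)).card +
      (s.filter (fun i => ¬ h i = 0)).card :=
    (Finset.card_filter_add_card_filter_not (s := s) (fun i => h i = 0)).symm
  obtain ⟨c, hc⟩ := hk0
  omega

/-- **A `2`-block with defect groups of order four has exactly four irreducible characters.** -/
theorem card_block_of_defect_two (hM : Cfsg.IsPModular 2 M) (B : Set (Cfsg.IrrCharacter G))
    (hB : Cfsg.IsPBlock M B) (P : Subgroup G) (hP : Cfsg.IsDefectGroup 2 M B P)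
    (hcard : Nat.card P = 4) : Nat.card B = 4 := by
  classical
  haveI : Fact (Nat.Prime 2) := ⟨Nat.prime_two⟩
  have hMp := isPrime_of_isPModular hM
  have := Cfsg.Agent.Lib.Helper77.irr_finite G
  have hfin : B.Finite := Set.toFinite B
  have hne : B.Nonempty := IsPBlock.nonempty hMp hB
  -- the defect
  have hcD := Cfsg.Agent.Lib.Helper77.card_isDefectGroup hM B hB P hP
  have hd : Cfsg.blockDefect 2 B = 2 := by
    rw [hcard] at hcD
    have h2 : (2 : ℕ) ^ 2 = 2 ^ Cfsg.blockDefect 2 B := by rw [← hcD]; norm_num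
    exact (Nat.pow_right_injective (le_refl 2) h2).symm
  obtain ⟨m, hm⟩ : ∃ m, m = sInf ((fun χ : Cfsg.IrrCharacter G =>
      (Cfsg.charDegree (χ : G → ℂ)).factorization 2) '' B) := ⟨_, rfl⟩
  have ha : (Nat.card G).factorization 2 = m + 2 := by
    unfold Cfsg.blockDefect at hd
    rw [← hm] at hd
    omega
  have hge : ∀ χ ∈ B, m ≤ (Cfsg.charDegree (χ : G → ℂ)).factorization 2 := by
    intro χ hχ
    rw [hm]
    exact Nat.sInf_le ⟨χ, hχ, rfl⟩
  have hht : ∀ χ : Cfsg.IrrCharacter G, Cfsg.blockHeight 2 B (χ : G → ℂ) =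
      (Cfsg.charDegree (χ : G → ℂ)).factorization 2 - m := by
    intro χ
    unfold Cfsg.blockHeight
    rw [← hm]
  have hdeg0 : ∀ χ : Cfsg.IrrCharacter G, Cfsg.charDegree (χ : G → ℂ) ≠ 0 := fun χ =>
    (Cfsg.Agent.Lib.Helper80.charDegree_pos χ.2).ne'
  -- the sum of squares
  have hsq := sq_sum_factorization (p := 2) hM B hB
  rw [hd, ha, finsum_mem_eq_finite_toFinset_sum _ hfin] at hsq
  have hterm : ∀ χ ∈ hfin.toFinset, Cfsg.charDegree (χ : G → ℂ) ^ 2 =
      4 ^ m * (4 ^ Cfsg.blockHeight 2 B (χ : G → ℂ) *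
        (Cfsg.charDegree (χ : G → ℂ) / 2 ^ (Cfsg.charDegree (χ : G → ℂ)).factorization 2) ^ 2) := by
    intro χ hχ
    have hχB : χ ∈ B := (Set.Finite.mem_toFinset hfin).mp hχ
    have h1 := Nat.ordProj_mul_ordCompl_eq_self (Cfsg.charDegree (χ : G → ℂ)) 2
    have h2 := hge χ hχB
    have h3 : (Cfsg.charDegree (χ : G → ℂ)).factorization 2 =
        m + Cfsg.blockHeight 2 B (χ : G → ℂ) := by
      rw [hht]
      omega
    obtain ⟨o, ho⟩ : ∃ o, o = Cfsg.charDegree (χ : G → ℂ) /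
        2 ^ (Cfsg.charDegree (χ : G → ℂ)).factorization 2 := ⟨_, rfl⟩
    rw [← ho] at h1 ⊢
    obtain ⟨hh, hhh⟩ : ∃ hh, hh = Cfsg.blockHeight 2 B (χ : G → ℂ) := ⟨_, rfl⟩
    rw [← hhh] at h3 ⊢
    rw [h3] at h1
    rw [← h1, mul_pow, ← pow_mul, show (m + hh) * 2 = 2 * m + 2 * hh by ring, pow_add, pow_mul,
      pow_mul]
    norm_num
    ring
  rw [Finset.sum_congr rfl hterm, ← Finset.mul_sum] at hsq
  have hS0 : ∑ χ ∈ hfin.toFinset, 4 ^ Cfsg.blockHeight 2 B (χ : G → ℂ) *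
      (Cfsg.charDegree (χ : G → ℂ) / 2 ^ (Cfsg.charDegree (χ : G → ℂ)).factorization 2) ^ 2 ≠ 0 := by
    intro hz
    rw [hz, mul_zero] at hsq
    simp at hsq
    omega
  have hval : (∑ χ ∈ hfin.toFinset, 4 ^ Cfsg.blockHeight 2 B (χ : G → ℂ) *
      (Cfsg.charDegree (χ : G → ℂ) / 2 ^ (Cfsg.charDegree (χ : G → ℂ)).factorization 2) ^ 2
        ).factorization 2 = 2 := by
    rw [Nat.factorization_mul (by positivity) hS0] at hsq
    have h4 : ((4 : ℕ) ^ m).factorization 2 = 2 * m := by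
      have : (4 : ℕ) ^ m = 2 ^ (2 * m) := by rw [pow_mul]; norm_num
      rw [this, Nat.prime_two.factorization_pow]
      simp
    simp only [Finsupp.coe_add, Pi.add_apply, h4] at hsq
    omega
  -- Brauer–Feit
  have hbf := Cfsg.Agent.S4676.result 2 M hM B hB P hP
  rw [hcard, finsum_mem_eq_finite_toFinset_sum _ hfin] at hbf
  have hbf' : ∑ χ ∈ hfin.toFinset, 4 ^ Cfsg.blockHeight 2 B (χ : G → ℂ) ≤ 5 := by
    have e : ∀ χ ∈ hfin.toFinset, (4 : ℕ) ^ Cfsg.blockHeight 2 B (χ : G → ℂ) =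
        2 ^ (2 * Cfsg.blockHeight 2 B (χ : G → ℂ)) := by
      intro χ _
      rw [pow_mul]
      norm_num
    rw [Finset.sum_congr rfl e]
    exact hbf
  obtain ⟨ψ, hψ, hψ0⟩ := Cfsg.Agent.Lib.Helper78.exists_height_zero 2 B hne
  have key := card_eq_four_of_sums hfin.toFinset
    (fun χ => Cfsg.blockHeight 2 B (χ : G → ℂ))
    (fun χ => Cfsg.charDegree (χ : G → ℂ) / 2 ^ (Cfsg.charDegree (χ : G → ℂ)).factorization 2)
    (fun χ _ => Nat.not_dvd_ordCompl Nat.prime_two (hdeg0 χ))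
    ⟨ψ, (Set.Finite.mem_toFinset hfin).mpr hψ, hψ0⟩ hval hbf'
  rw [Nat.card_coe_set_eq, Set.ncard_eq_toFinset_card B hfin]
  exact key

end KleinCount

end Cfsg.Agent.Lib.Helper79
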