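import Mathlib
import Cfsg.Agent.Lib.Helper77.NilControl
import Cfsg.Agent.Lib.Helper77.PairTools
import Cfsg.Agent.Lib.Helper77.IndBridge
import Cfsg.Agent.Lib.Helper77.LocalPairs
import Cfsg.Agent.Lib.Helper76.DefectOne
import Cfsg.Agent.Lib.Helper32.PrincType
import Cfsg.Agent.S4511
import Cfsg.Agent.S4655
import Cfsg.Agent.S4659
import Cfsg.Agent.S4687
import Cfsg.Agent.Lib.Helper79.KleinCount

/-!
# Klein four defect groups with trivial inertial quotient

A `2`-block with an abelian defect group of order four and trivial inertial quotient is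
nilpotent; its three Brauer pairs on the subgroups of order two are pairwise non-conjugate, so
the block has exactly one irreducible Brauer character.
-/

set_option autoImplicit false
set_option linter.unusedSectionVars false
set_option linter.style.haveILetI false

namespace Cfsg.Agent.Lib.Helper79

open Cfsg Cfsg.Agent.Lib.Helper16 Cfsg.Agent.Lib.Helper77 Cfsg.Agent.Lib.Helper81

section KleinNil

variable {G : Type*} [Group G] [Fintype G] {M : Ideal Cfsg.AlgInt}

/-- the number of irreducible Brauer characters in the blocks of `K` inducing `B` -/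
noncomputable def indCount (p : ℕ) (M : Ideal Cfsg.AlgInt) (B : Set (Cfsg.IrrCharacter G))
    (K : Subgroup G) : ℕ :=
  ∑ᶠ b ∈ {b : Set (Cfsg.IrrCharacter ↥K) | Cfsg.IsInducedBlock M K b B}, Cfsg.blockRank p b

theorem centralizer_singleton_eq_zpowers (x : G) :
    Subgroup.centralizer ({x} : Set G) = Subgroup.centralizer (Subgroup.zpowers x : Set G) := by
  ext g
  rw [Subgroup.mem_centralizer_iff, Subgroup.mem_centralizer_iff]
  constructor
  · intro h y hy
    obtain ⟨i, rfl⟩ := Subgroup.mem_zpowers_iff.mp hy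
    have h1 : Commute x g := h x rfl
    exact (h1.zpow_left i).eq
  · intro h y hy
    rw [Set.mem_singleton_iff] at hy
    subst hy
    exact h y (Subgroup.mem_zpowers y)

/-- finitely many distinct blocks inducing `B` bound the count from below -/
theorem card_le_indCount {p : ℕ} (hp : p.Prime) (hMp : M.IsPrime)
    (B : Set (Cfsg.IrrCharacter G)) (K : Subgroup G) {ι : Type*} (s : Finset ι)
    (F : ι → Set (Cfsg.IrrCharacter ↥K))
    (hF : ∀ i ∈ s, Cfsg.IsInducedBlock M K (F i) B)
    (hinj : ∀ i ∈ s, ∀ j ∈ s, F i = F j → i = j) : s.card ≤ indCount p M B K := by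
  classical
  letI : Fintype K := Fintype.ofFinite K
  have := Cfsg.Agent.Lib.Helper81.irr_finite K
  have hfin : ({b : Set (Cfsg.IrrCharacter ↥K) | Cfsg.IsInducedBlock M K b B}).Finite :=
    Set.toFinite _
  unfold indCount
  rw [finsum_mem_eq_finite_toFinset_sum _ hfin]
  calc s.card = (s.image F).card :=
        (Finset.card_image_of_injOn (fun i hi j hj h => hinj i hi j hj h)).symm
    _ = ∑ b ∈ s.image F, 1 := by simp
    _ ≤ ∑ b ∈ s.image F, Cfsg.blockRank p b := Finset.sum_le_sum (fun b hb => by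
        obtain ⟨i, hi, rfl⟩ := Finset.mem_image.mp hb
        exact Cfsg.Agent.Lib.Helper76.blockRank_pos hp hMp _ (hF i hi).1)
    _ ≤ ∑ b ∈ hfin.toFinset, Cfsg.blockRank p b := Finset.sum_le_sum_of_subset (by
        intro b hb
        obtain ⟨i, hi, rfl⟩ := Finset.mem_image.mp hb
        rw [Set.Finite.mem_toFinset]
        exact hF i hi)

/-- **Klein four defect group, inertial index one.**  A `2`-block with maximal Brauer pair
`(P, c)`, `P` abelian of order four, such that the stabilizer of `c` in `N_G(P)` is `C_G(P)`,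
has exactly one irreducible Brauer character. -/
theorem klein_rank_one (hM : Cfsg.IsPModular 2 M) (B : Set (Cfsg.IrrCharacter G))
    (P : Subgroup G) (c : Set (Cfsg.IrrCharacter (Subgroup.centralizer (P : Set G))))
    (hmax : Cfsg.IsMaximalBrauerPair 2 M B P c) (hcard : Nat.card P = 4)
    (hab : ∀ x ∈ P, ∀ y ∈ P, x * y = y * x)
    (hstab : ∀ x : G, x ∈ Subgroup.normalizer (P : Set G) →
      Cfsg.StabilizesBlock (Subgroup.centralizer (P : Set G)) c x →
      x ∈ Subgroup.centralizer (P : Set G)) : Cfsg.blockRank 2 B = 1 := by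
  classical
  haveI : Fact (Nat.Prime 2) := ⟨Nat.prime_two⟩
  have hMp := isPrime_of_isPModular hM
  have hB : Cfsg.IsPBlock M B := hmax.1.2.1
  have hPe : Cfsg.IsBrauerPair 2 M P c := hmax.1.1
  have hPD := Cfsg.Agent.S4659.result 2 M hM B P c hmax
  have hk : Nat.card B = 4 := card_block_of_defect_two hM B hB P hPD hcard
  have hnil : Cfsg.IsNilpotentBlock 2 M B :=
    (Cfsg.Agent.S4687.result 2 M hM B P c hmax hab).mpr hstab
  obtain ⟨X, h1X, hX, hXrep⟩ :=
    Cfsg.Agent.Lib.Helper76.exists_section_reps 2 (1 : G) ⟨0, by simp⟩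
  have hcount := Cfsg.Agent.S4511.result 2 M hM B hB X hX hXrep
  have hN1 := Cfsg.Agent.Lib.Helper76.induced_count_at_one hM B hB
  rw [← Finset.add_sum_erase X _ h1X, hN1, hk] at hcount
  have hpos := Cfsg.Agent.Lib.Helper76.blockRank_pos Nat.prime_two hMp B hB
  -- the three involutions give three pairwise non-conjugate pairs
  have key : 3 ≤ ∑ x ∈ X.erase 1, indCount 2 M B (Subgroup.centralizer ({x} : Set G)) := by
    obtain ⟨U, hU⟩ : ∃ U : Finset G, U = (Finset.univ.filter (fun u : G => u ∈ P)).erase 1 :=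
      ⟨_, rfl⟩
    have hUcard : U.card = 3 := by
      have h1 : (Finset.univ.filter (fun u : G => u ∈ P)).card = 4 := by
        rw [← hcard, Nat.card_eq_fintype_card, Fintype.card_subtype]
      rw [hU, Finset.card_erase_of_mem (by simp [P.one_mem]), h1]
    have hUP : ∀ u ∈ U, u ∈ P ∧ u ≠ 1 := by
      intro u hu
      rw [hU, Finset.mem_erase, Finset.mem_filter] at hu
      exact ⟨hu.2.2, hu.1⟩
    have hord : ∀ u ∈ P, ∃ k : ℕ, orderOf u = 2 ^ k := by
      intro u hu
      obtain ⟨k, hk⟩ := (IsPGroup.iff_orderOf.mp hPe.1) ⟨u, hu⟩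
      exact ⟨k, by rw [← hk, Subgroup.orderOf_mk]⟩
    have hrep : ∀ u : G, ∃ (r a : G), u ∈ P → (r ∈ X ∧ a * u * a⁻¹ = r) := by
      intro u
      by_cases hu : u ∈ P
      · obtain ⟨y, ⟨hyX, hy⟩, -⟩ := hXrep u (hord u hu)
        obtain ⟨a, ha⟩ := isConj_iff.mp hy
        exact ⟨y, a, fun _ => ⟨hyX, ha⟩⟩
      · exact ⟨1, 1, fun h => absurd h hu⟩
    choose r a hra using hrep
    have hfex : ∀ u : G, ∃ f : Set (Cfsg.IrrCharacter
        (Subgroup.centralizer (Subgroup.zpowers u : Set G))),
        u ∈ P → (Cfsg.IsPBlock M f ∧ Cfsg.SubpairLE 2 M (Subgroup.zpowers u) f P c) := by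
      intro u
      by_cases hu : u ∈ P
      · obtain ⟨f, hf, -⟩ := Cfsg.Agent.S4655.result 2 M hM P (Subgroup.zpowers u) c hPe
          (by rwa [Subgroup.zpowers_le])
        exact ⟨f, fun _ => hf⟩
      · exact ⟨∅, fun h => absurd h hu⟩
    choose f hf using hfex
    have hmaps : ∀ u ∈ U, r u ∈ X.erase 1 := by
      intro u hu
      obtain ⟨huP, hu1⟩ := hUP u hu
      obtain ⟨hrX, har⟩ := hra u huP
      rw [Finset.mem_erase]
      refine ⟨?_, hrX⟩
      intro h1
      rw [h1] at har
      apply hu1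
      have h2 : u = (a u)⁻¹ * (a u * u * (a u)⁻¹) * a u := by group
      rw [h2, har]
      group
    rw [← hUcard, Finset.card_eq_sum_card_fiberwise hmaps]
    apply Finset.sum_le_sum
    intro x hx
    rw [congrArg (indCount 2 M B) (centralizer_singleton_eq_zpowers x)]
    have hzpow : ∀ u ∈ U, r u = x →
        Subgroup.zpowers x = (Subgroup.zpowers u).map (MulAut.conj (a u)).toMonoidHom := by
      intro u hu hrx
      obtain ⟨huP, hu1⟩ := hUP u hu
      obtain ⟨hrX, har⟩ := hra u huP
      rw [MonoidHom.map_zpowers]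
      congr 1
      rw [← hrx, ← har]
      rfl
    apply card_le_indCount Nat.prime_two hMp B _ _
      (fun u => conjBlockTo (a u) (Subgroup.zpowers u) (Subgroup.zpowers x) (f u))
    · intro u hu
      rw [Finset.mem_filter] at hu
      obtain ⟨huP, hu1⟩ := hUP u hu.1
      have hzp := hzpow u hu.1 hu.2
      have h1 : Cfsg.IsBrauerPairOf 2 M B (Subgroup.zpowers u) (f u) :=
        isBrauerPairOf_of_subpairLE_down hM (a := ⟨Subgroup.zpowers u, f u⟩) (b := ⟨P, c⟩)
          (hf u huP).2 hmax.1
      have h2 := isBrauerPairOf_conjBlockTo hMp (a u) hzp h1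
      exact Cfsg.Agent.Lib.Helper32.isInducedBlock_of_isBrauerPairOf hM h2
    · intro u hu u' hu' heq
      rw [Finset.mem_filter] at hu hu'
      obtain ⟨huP, hu1⟩ := hUP u hu.1
      obtain ⟨hrX, har⟩ := hra u huP
      obtain ⟨huP', hu1'⟩ := hUP u' hu'.1
      obtain ⟨hrX', har'⟩ := hra u' huP'
      have hzp := hzpow u hu.1 hu.2
      have hzp' := hzpow u' hu'.1 hu'.2
      have hzp'' : Subgroup.zpowers u' =
          (Subgroup.zpowers x).map (MulAut.conj (a u')⁻¹).toMonoidHom := by
        rw [MonoidHom.map_zpowers]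
        congr 1
        show u' = (a u')⁻¹ * x * (a u')⁻¹⁻¹
        rw [← hu'.2, ← har']
        group
      obtain ⟨g, hg⟩ : ∃ g : G, g = (a u')⁻¹ * a u := ⟨_, rfl⟩
      have hgu : g * u * g⁻¹ = u' := by
        have h3 : (a u) * u * (a u)⁻¹ = (a u') * u' * (a u')⁻¹ := by
          rw [har, har', hu.2, hu'.2]
        rw [hg]
        calc (a u')⁻¹ * a u * u * ((a u')⁻¹ * a u)⁻¹
            = (a u')⁻¹ * (a u * u * (a u)⁻¹) * a u' := by group
          _ = (a u')⁻¹ * (a u' * u' * (a u')⁻¹) * a u' := by rw [h3]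
          _ = u' := by group
      have hzg : Subgroup.zpowers u' =
          (Subgroup.zpowers u).map (MulAut.conj g).toMonoidHom := by
        rw [MonoidHom.map_zpowers]
        congr 1
        exact hgu.symm
      have heq' : conjBlockTo (a u) (Subgroup.zpowers u) (Subgroup.zpowers x) (f u) =
          conjBlockTo (a u') (Subgroup.zpowers u') (Subgroup.zpowers x) (f u') := heq
      have hblock : conjBlockTo g (Subgroup.zpowers u) (Subgroup.zpowers u') (f u) = f u' := by
        rw [hg, ← conjBlockTo_conjBlockTo (a u) (a u')⁻¹ (Subgroup.zpowers u)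
          (Subgroup.zpowers x) (Subgroup.zpowers u') hzp hzp'' (f u), heq',
          conjBlockTo_conjBlockTo (a u') (a u')⁻¹ (Subgroup.zpowers u')
          (Subgroup.zpowers x) (Subgroup.zpowers u') hzp' hzp'' (f u'), inv_mul_cancel,
          conjBlockTo_eq_conjSet _ 1 (Subgroup.one_mem _), conjSet_one]
      have hle : Cfsg.SubpairLE 2 M ((Subgroup.zpowers u).map (MulAut.conj g).toMonoidHom)
          (Cfsg.conjBlock (Subgroup.zpowers u) g (f u)) P c := by
        unfold Cfsg.SubpairLE
        rw [sigma_conjBlock_eq g (Subgroup.zpowers u) (Subgroup.zpowers u') hzg (f u), hblock]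
        exact (hf u' huP').2
      obtain ⟨w, hw, hwq⟩ := exists_conj_eq_of_isNilpotentBlock hM hmax hnil _
        (Subgroup.zpowers u) (f u) g rfl (hf u huP).2 hle
      have h3 := hwq u (Subgroup.mem_zpowers u)
      rw [hgu] at h3
      rw [h3, hab w hw u huP]
      group
  have key' : 3 ≤ ∑ x ∈ X.erase 1, ∑ᶠ b ∈ {b : Set (Cfsg.IrrCharacter
      ↥(Subgroup.centralizer ({x} : Set G))) |
      Cfsg.IsInducedBlock M (Subgroup.centralizer ({x} : Set G)) b B}, Cfsg.blockRank 2 b := key
  omega

end KleinNil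

end Cfsg.Agent.Lib.Helper79
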