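import Mathlib
import Cfsg.Agent.Lib.Helper79.KleinNil
import Cfsg.Agent.Lib.Helper77.ConjPair
import Cfsg.Agent.Lib.Helper77.IdemSet
import Cfsg.Agent.Lib.Helper77.SubPairs
import Cfsg.Agent.Lib.Helper77.SubpairUnique

/-!
# Klein four defect groups with inertial index three

A `2`-block with maximal Brauer pair `(P, c)`, `P` a four group, whose inertial group acts
freely and transitively on the involutions of `P`, has exactly three irreducible Brauer
characters.
-/

set_option autoImplicit false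
set_option linter.unusedSectionVars false
set_option linter.style.haveILetI false

namespace Cfsg.Agent.Lib.Helper79

open Cfsg Cfsg.Agent.Lib.Helper16 Cfsg.Agent.Lib.Helper77 Cfsg.Agent.Lib.Helper81

section KleinThree

variable {G : Type*} [Group G] [Fintype G] {M : Ideal Cfsg.AlgInt}

/-- the block of `C_G(u)` below `(P, c)` has one irreducible Brauer character when the
elements of the inertial group fixing `u` centralize `P` -/
theorem klein_sub_rank_one (hM : Cfsg.IsPModular 2 M) (B : Set (Cfsg.IrrCharacter G))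
    (P : Subgroup G) (c : Set (Cfsg.IrrCharacter (Subgroup.centralizer (P : Set G))))
    (hmax : Cfsg.IsMaximalBrauerPair 2 M B P c) (hcard : Nat.card P = 4)
    (hab : ∀ x ∈ P, ∀ y ∈ P, x * y = y * x) (u : G) (hu : u ∈ P)
    (hfree : ∀ t : G, t ∈ Subgroup.normalizer (P : Set G) →
      Cfsg.StabilizesBlock (Subgroup.centralizer (P : Set G)) c t → t * u * t⁻¹ = u →
      t ∈ Subgroup.centralizer (P : Set G))
    (f : Set (Cfsg.IrrCharacter (Subgroup.centralizer (Subgroup.zpowers u : Set G))))
    (hf : Cfsg.IsPBlock M f) (hle : Cfsg.SubpairLE 2 M (Subgroup.zpowers u) f P c) :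
    Cfsg.blockRank 2 f = 1 := by
  classical
  haveI : Fact (Nat.Prime 2) := ⟨Nat.prime_two⟩
  letI : Fintype (Subgroup.centralizer (Subgroup.zpowers u : Set G)) := Fintype.ofFinite _
  have hQP : Subgroup.zpowers u ≤ P := by rwa [Subgroup.zpowers_le]
  have hPH : P ≤ Subgroup.centralizer (Subgroup.zpowers u : Set G) := by
    intro x hx
    rw [Subgroup.mem_centralizer_iff]
    intro q hq
    exact hab q (hQP hq) x hx
  have hCH : Subgroup.centralizer (P : Set G) ≤
      Subgroup.centralizer (Subgroup.zpowers u : Set G) := Subgroup.centralizer_le hQP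
  have hmaxH := isMaximalBrauerPair_centralizer hM hmax hf hle hPH hCH
  refine klein_rank_one hM f _ _ hmaxH ?_ ?_ ?_
  · rw [← hcard]
    exact Nat.card_congr (Subgroup.subgroupOfEquivOfLe hPH).toEquiv
  · intro x hx y hy
    apply Subtype.ext
    exact hab x (Subgroup.mem_subgroupOf.mp hx) y (Subgroup.mem_subgroupOf.mp hy)
  · intro x hxn hxs
    have hCE := centEq_subgroupOf (Subgroup.centralizer (Subgroup.zpowers u : Set G)) P hPH hCH
    have h1 := stabilizesBlock_subCentIso _ _ P hCE _ hxs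
    rw [mapSet_mapSet_symm] at h1
    have hxnG : (x : G) ∈ Subgroup.normalizer (P : Set G) := by
      rw [Subgroup.mem_normalizer_iff]
      intro y
      have h2 := Subgroup.mem_normalizer_iff.mp hxn
      constructor
      · intro hy
        have h3 := (h2 ⟨y, hPH hy⟩).mp (Subgroup.mem_subgroupOf.mpr hy)
        exact Subgroup.mem_subgroupOf.mp h3
      · intro hy
        have hyH : y ∈ Subgroup.centralizer (Subgroup.zpowers u : Set G) := by
          have h3 := Subgroup.mul_mem _ (Subgroup.mul_mem _ (Subgroup.inv_mem _ x.2) (hPH hy)) x.2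
          have e : (x : G)⁻¹ * ((x : G) * y * (x : G)⁻¹) * (x : G) = y := by group
          rwa [e] at h3
        have h3 := (h2 ⟨y, hyH⟩).mpr (Subgroup.mem_subgroupOf.mpr hy)
        exact Subgroup.mem_subgroupOf.mp h3
    have hxu : (x : G) * u * (x : G)⁻¹ = u := by
      have h4 := Subgroup.mem_centralizer_iff.mp x.2 u (Subgroup.mem_zpowers u)
      rw [← h4]
      group
    have hxC := hfree (x : G) hxnG h1 hxu
    rw [Subgroup.mem_centralizer_iff] at hxC ⊢
    intro y hy
    apply Subtype.ext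
    exact hxC (y : G) (Subgroup.mem_subgroupOf.mp hy)

/-- **Klein four defect group, inertial index three.** -/
theorem klein_rank_three (hM : Cfsg.IsPModular 2 M) (B : Set (Cfsg.IrrCharacter G))
    (P : Subgroup G) (c : Set (Cfsg.IrrCharacter (Subgroup.centralizer (P : Set G))))
    (hmax : Cfsg.IsMaximalBrauerPair 2 M B P c) (hcard : Nat.card P = 4)
    (hab : ∀ x ∈ P, ∀ y ∈ P, x * y = y * x)
    (hfree : ∀ t : G, t ∈ Subgroup.normalizer (P : Set G) →
      Cfsg.StabilizesBlock (Subgroup.centralizer (P : Set G)) c t →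
      ∀ u ∈ P, u ≠ 1 → t * u * t⁻¹ = u → t ∈ Subgroup.centralizer (P : Set G))
    (htrans : ∀ u ∈ P, u ≠ 1 → ∀ u' ∈ P, u' ≠ 1 → ∃ t : G,
      t ∈ Subgroup.normalizer (P : Set G) ∧
      Cfsg.StabilizesBlock (Subgroup.centralizer (P : Set G)) c t ∧ t * u * t⁻¹ = u') :
    Cfsg.blockRank 2 B = 3 := by
  classical
  haveI : Fact (Nat.Prime 2) := ⟨Nat.prime_two⟩
  have hMp := isPrime_of_isPModular hM
  have hB : Cfsg.IsPBlock M B := hmax.1.2.1
  have hPe : Cfsg.IsBrauerPair 2 M P c := hmax.1.1
  have hPD := Cfsg.Agent.S4659.result 2 M hM B P c hmax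
  have hk : Nat.card B = 4 := card_block_of_defect_two hM B hB P hPD hcard
  obtain ⟨u₁, hu₁P, hu₁1⟩ : ∃ u ∈ P, u ≠ 1 := by
    by_contra hcon
    push Not at hcon
    have hbot : P = ⊥ := (Subgroup.eq_bot_iff_forall P).mpr hcon
    rw [hbot] at hcard
    simp at hcard
  have hord : ∀ u ∈ P, ∃ k : ℕ, orderOf u = 2 ^ k := by
    intro u hu
    obtain ⟨k, hk⟩ := (IsPGroup.iff_orderOf.mp hPe.1) ⟨u, hu⟩
    exact ⟨k, by rw [← hk, Subgroup.orderOf_mk]⟩
  obtain ⟨X, hu₁X, hX, hXrep⟩ :=
    Cfsg.Agent.Lib.Helper76.exists_section_reps 2 u₁ (hord u₁ hu₁P)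
  have h1X : (1 : G) ∈ X := by
    obtain ⟨y, ⟨hyX, hy⟩, -⟩ := hXrep 1 ⟨0, by simp⟩
    have hy1 : y = 1 := by
      obtain ⟨a, ha⟩ := isConj_iff.mp hy
      rw [← ha]
      group
    rwa [hy1] at hyX
  have hcount := Cfsg.Agent.S4511.result 2 M hM B hB X hX hXrep
  have hN1 := Cfsg.Agent.Lib.Helper76.induced_count_at_one hM B hB
  rw [← Finset.add_sum_erase X _ h1X, hN1, hk] at hcount
  -- the block of `C_G(u₁)` below `(P, c)`
  obtain ⟨f₁, ⟨hf₁, hle₁⟩, -⟩ := Cfsg.Agent.S4655.result 2 M hM P (Subgroup.zpowers u₁) c hPe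
    (by rwa [Subgroup.zpowers_le])
  have hf₁rank : Cfsg.blockRank 2 f₁ = 1 :=
    klein_sub_rank_one hM B P c hmax hcard hab u₁ hu₁P
      (fun t ht hs h => hfree t ht hs u₁ hu₁P hu₁1 h) f₁ hf₁ hle₁
  -- every pair on a nontrivial cyclic subgroup is conjugate into the pair on `u₁`
  have hP3 : ∀ x : G, x ≠ 1 → (∃ k : ℕ, orderOf x = 2 ^ k) →
      ∀ b : Set (Cfsg.IrrCharacter (Subgroup.centralizer (Subgroup.zpowers x : Set G))),
      Cfsg.IsInducedBlock M (Subgroup.centralizer (Subgroup.zpowers x : Set G)) b B →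
      ∃ h : G, h * x * h⁻¹ = u₁ ∧
        Cfsg.SubpairLE 2 M ((Subgroup.zpowers x).map (MulAut.conj h).toMonoidHom)
          (Cfsg.conjBlock (Subgroup.zpowers x) h b) P c := by
    intro x hx1 hxord b hb
    have hxP : IsPGroup 2 (Subgroup.zpowers x) := by
      obtain ⟨k, hk⟩ := hxord
      exact IsPGroup.of_card (n := k) (by rw [Nat.card_zpowers, hk])
    have hQf := isBrauerPairOf_of_isInducedBlock hM hxP hb
    obtain ⟨g, hg⟩ := exists_subpairLE_conjBlock hM hmax hQf
      (fun R e h => Cfsg.Agent.S4659.result 2 M hM B R e h)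
    have hle := subpairLE_le (a := ⟨_, _⟩) (b := ⟨P, c⟩) hg
    have hvP : g * x * g⁻¹ ∈ P := hle ⟨x, Subgroup.mem_zpowers x, rfl⟩
    have hv1 : g * x * g⁻¹ ≠ 1 := by
      intro h
      apply hx1
      have e : x = g⁻¹ * (g * x * g⁻¹) * g := by group
      rw [e, h]
      group
    obtain ⟨t, htN, htS, htv⟩ := htrans _ hvP hv1 u₁ hu₁P hu₁1
    refine ⟨t * g, ?_, ?_⟩
    · rw [← htv]
      group
    · have h2 := subpairLE_conjBlock hMp t hg
      unfold Cfsg.SubpairLE at h2 ⊢
      rwa [sigma_conjBlock_of_stabilizes P c htN htS, sigma_conjBlock_conjBlock] at h2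
  -- the count
  have hsum : ∑ x ∈ X.erase 1, indCount 2 M B (Subgroup.centralizer ({x} : Set G)) = 1 := by
    have hu₁X' : u₁ ∈ X.erase 1 := Finset.mem_erase.mpr ⟨hu₁1, hu₁X⟩
    rw [Finset.sum_eq_single_of_mem u₁ hu₁X']
    · rw [congrArg (indCount 2 M B) (centralizer_singleton_eq_zpowers u₁)]
      unfold indCount
      have hset : {b : Set (Cfsg.IrrCharacter
          ↥(Subgroup.centralizer (Subgroup.zpowers u₁ : Set G))) |
          Cfsg.IsInducedBlock M (Subgroup.centralizer (Subgroup.zpowers u₁ : Set G)) b B} =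
          {f₁} := by
        ext b
        rw [Set.mem_ofPred_eq, Set.mem_singleton_iff]
        constructor
        · intro hb
          obtain ⟨h, hh, hle⟩ := hP3 u₁ hu₁1 (hord u₁ hu₁P) b hb
          have hhC : h ∈ Subgroup.centralizer (Subgroup.zpowers u₁ : Set G) := by
            rw [← centralizer_singleton_eq_zpowers, Subgroup.mem_centralizer_iff]
            intro y hy
            rw [Set.mem_singleton_iff] at hy
            subst hy
            have e : h * y = (h * y * h⁻¹) * h := by group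
            rw [e, hh]
          unfold Cfsg.SubpairLE at hle
          rw [sigma_conjBlock_of_stabilizes (Subgroup.zpowers u₁) b
            (Subgroup.centralizer_le_normalizer _ hhC) (stabilizesBlock_of_mem _ b hhC)] at hle
          exact subpairLE_unique hM _ P c le_rfl hPe (Subgroup.zpowers u₁) b f₁ hle hle₁
        · intro hb
          rw [hb]
          have h1 : Cfsg.IsBrauerPairOf 2 M B (Subgroup.zpowers u₁) f₁ :=
            isBrauerPairOf_of_subpairLE_down hM (a := ⟨Subgroup.zpowers u₁, f₁⟩) (b := ⟨P, c⟩)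
              hle₁ hmax.1
          exact Cfsg.Agent.Lib.Helper32.isInducedBlock_of_isBrauerPairOf hM h1
      rw [hset, finsum_mem_singleton, hf₁rank]
    · intro x hx hxu
      rw [Finset.mem_erase] at hx
      rw [congrArg (indCount 2 M B) (centralizer_singleton_eq_zpowers x)]
      unfold indCount
      have hset : {b : Set (Cfsg.IrrCharacter
          ↥(Subgroup.centralizer (Subgroup.zpowers x : Set G))) |
          Cfsg.IsInducedBlock M (Subgroup.centralizer (Subgroup.zpowers x : Set G)) b B} =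
          ∅ := by
        ext b
        rw [Set.mem_ofPred_eq]
        constructor
        · intro hb
          exfalso
          obtain ⟨h, hh, -⟩ := hP3 x hx.1 (hX x hx.2) b hb
          obtain ⟨y, -, hyu⟩ := hXrep x (hX x hx.2)
          have h1 := hyu x ⟨hx.2, IsConj.refl x⟩
          have h2 := hyu u₁ ⟨hu₁X, isConj_iff.mpr ⟨h, hh⟩⟩
          exact hxu (h1.trans h2.symm)
        · intro hb
          exact absurd hb (Set.notMem_empty b)
      rw [hset, finsum_mem_empty]
  have hsum' : ∑ x ∈ X.erase 1, ∑ᶠ b ∈ {b : Set (Cfsg.IrrCharacter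
      ↥(Subgroup.centralizer ({x} : Set G))) |
      Cfsg.IsInducedBlock M (Subgroup.centralizer ({x} : Set G)) b B}, Cfsg.blockRank 2 b = 1 :=
    hsum
  omega

end KleinThree

end Cfsg.Agent.Lib.Helper79
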