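import Mathlib
import Cfsg.Prelude.Def_Blocks
import Cfsg.Prelude.Def_BlockRank
import Cfsg.Agent.Lib.Helper16.Osima
import Cfsg.Agent.Lib.Helper16.BlockBasic
import Cfsg.Agent.Lib.Helper78.BlockOrth
import Cfsg.Agent.Lib.Helper79.ClassMult

set_option autoImplicit false

namespace Cfsg.Agent.Lib.Helper79

open Cfsg

/-- If `χ` has `p`-defect zero then `p` does not divide `|G| / χ(1)`. -/
theorem not_dvd_card_div_degree_of_defect_zero {G : Type*} [Group G] [Finite G] (p : ℕ)
    (hp : p.Prime) (χ : Cfsg.IrrCharacter G)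
    (h : (Cfsg.charDegree (χ : G → ℂ)).factorization p = (Nat.card G).factorization p) :
    ¬ p ∣ Nat.card G / Cfsg.charDegree (χ : G → ℂ) := by
  obtain ⟨-, hpos, hdvd⟩ := irr_charDegree χ.2
  obtain ⟨k, hk⟩ := hdvd
  have hGne : Nat.card G ≠ 0 := Nat.card_pos.ne'
  have hk0 : k ≠ 0 := by
    intro h0
    rw [h0, mul_zero] at hk
    exact hGne hk
  rw [hk, Nat.mul_div_cancel_left k hpos]
  rw [hk, Nat.factorization_mul hpos.ne' hk0, Finsupp.add_apply] at h
  have hz : k.factorization p = 0 := by omega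
  intro hdvd
  have := (hp.factorization_pos_of_dvd hk0 hdvd)
  omega

section Block

variable {G : Type*} [Group G] [Fintype G] {M : Ideal Cfsg.AlgInt}

/-- A character of `p`-defect zero is alone in its block. -/
theorem eq_of_sameBlock_of_defect_zero {p : ℕ} (hM : Cfsg.IsPModular p M)
    (χ ψ : Cfsg.IrrCharacter G) (hs : Cfsg.SameBlock M (χ : G → ℂ) (ψ : G → ℂ))
    (hd : (Cfsg.charDegree (χ : G → ℂ)).factorization p = (Nat.card G).factorization p) :
    χ = ψ := by
  classical
  by_contra hne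
  have hprime := Cfsg.Agent.Lib.Helper16.isPrime_of_isPModular hM
  have hα : Cfsg.Agent.Lib.Helper16.IsRClass M (fun g : G => (χ : G → ℂ) g⁻¹) := by
    constructor
    · intro g h
      have : (h * g * h⁻¹)⁻¹ = h * g⁻¹ * h⁻¹ := by group
      show (χ : G → ℂ) (h * g * h⁻¹)⁻¹ = (χ : G → ℂ) g⁻¹
      rw [this]
      exact irr_conj_eq χ.2 g⁻¹ h
    · intro g
      exact Cfsg.Agent.Lib.Helper16.memLocalRing_of_isIntegral hprime (irr_isIntegral χ.2 g⁻¹)
  have hkey := Cfsg.Agent.Lib.Helper16.memLocalIdeal_omega_sub hprime hs hα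
  have hG : (Nat.card G : ℂ) ≠ 0 := by exact_mod_cast Nat.card_pos.ne'
  obtain ⟨h1, hpos, hdvd⟩ := irr_charDegree χ.2
  have hne1 : (Cfsg.charDegree (χ : G → ℂ) : ℂ) ≠ 0 := by exact_mod_cast hpos.ne'
  have e1 : Cfsg.Agent.Lib.Helper16.omega (χ : G → ℂ) (fun g : G => (χ : G → ℂ) g⁻¹) =
      ((Nat.card G / Cfsg.charDegree (χ : G → ℂ) : ℕ) : ℂ) := by
    unfold Cfsg.Agent.Lib.Helper16.omega
    rw [← Finset.sum_div]
    have h2 := Cfsg.Agent.Lib.Helper3.pair_irr_self χ.2
    rw [Cfsg.Agent.Lib.Helper3.pair_eq_sum_inv] at h2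
    have h3 : ∑ g : G, (χ : G → ℂ) g⁻¹ * (χ : G → ℂ) g = (Nat.card G : ℂ) := by
      field_simp at h2
      linear_combination h2
    rw [h3, h1, Nat.cast_div hdvd hne1]
  have e2 : Cfsg.Agent.Lib.Helper16.omega (ψ : G → ℂ) (fun g : G => (χ : G → ℂ) g⁻¹) = 0 := by
    unfold Cfsg.Agent.Lib.Helper16.omega
    rw [← Finset.sum_div]
    have h2 := Cfsg.Agent.Lib.Helper3.pair_irr_ne χ.2 ψ.2
      (fun h => hne (Subtype.ext h))
    rw [Cfsg.Agent.Lib.Helper3.pair_eq_sum_inv] at h2
    have h3 : ∑ g : G, (χ : G → ℂ) g⁻¹ * (ψ : G → ℂ) g = 0 := by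
      rcases mul_eq_zero.mp h2 with h | h
      · exact absurd h (inv_ne_zero hG)
      · exact h
    rw [h3, zero_div]
  rw [e1, e2, sub_zero] at hkey
  have hdvd' := (Cfsg.Agent.Lib.Helper16.memLocalIdeal_natCast_iff hM _).mp hkey
  exact not_dvd_card_div_degree_of_defect_zero p hM.1 χ hd hdvd'

end Block

/-- An irreducible character vanishing on all `p`-singular elements has `p`-defect zero. -/
theorem defect_zero_of_vanish_singular {G : Type*} [Group G] [Finite G] (p : ℕ) [Fact p.Prime]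
    (χ : Cfsg.IrrCharacter G) (hv : ∀ g : G, p ∣ orderOf g → (χ : G → ℂ) g = 0) :
    (Cfsg.charDegree (χ : G → ℂ)).factorization p = (Nat.card G).factorization p := by
  classical
  have hp : p.Prime := Fact.out
  obtain ⟨P⟩ : Nonempty (Sylow p G) := inferInstance
  let _ : Fintype (P : Subgroup G) := Fintype.ofFinite _
  have hcard : Nat.card (P : Subgroup G) = p ^ (Nat.card G).factorization p :=
    P.card_eq_multiplicity
  obtain ⟨m, hm⟩ := irr_sum_subgroup χ.2 (P : Subgroup G)
  obtain ⟨h1, hpos, hdvd⟩ := irr_charDegree χ.2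
  have hL : ∑ x : (P : Subgroup G), (χ : G → ℂ) (x : G) = (χ : G → ℂ) 1 := by
    rw [Finset.sum_eq_single (1 : (P : Subgroup G))]
    · rfl
    · intro x _ hx
      apply hv
      obtain ⟨k, hk⟩ := (IsPGroup.iff_orderOf.mp P.isPGroup') x
      rw [Subgroup.orderOf_coe, hk]
      have hk0 : k ≠ 0 := by
        intro h0
        rw [h0, pow_zero] at hk
        exact hx (orderOf_eq_one_iff.mp hk)
      exact dvd_pow_self p hk0
    · intro h
      exact absurd (Finset.mem_univ _) h
  rw [hL, h1, hcard] at hm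
  have hnat : Cfsg.charDegree (χ : G → ℂ) = p ^ (Nat.card G).factorization p * m := by
    exact_mod_cast hm
  have hGne : Nat.card G ≠ 0 := Nat.card_pos.ne'
  have hle : (Cfsg.charDegree (χ : G → ℂ)).factorization p ≤ (Nat.card G).factorization p :=
    (Nat.factorization_le_iff_dvd hpos.ne' hGne).mpr hdvd p
  have hge : (Nat.card G).factorization p ≤ (Cfsg.charDegree (χ : G → ℂ)).factorization p :=
    (hp.pow_dvd_iff_le_factorization hpos.ne').mp ⟨m, hnat⟩
  exact le_antisymm hle hge

/-- If the `p`-regular parts of the characters of a block are linearly independent (the block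
has as many characters as its `p`-regular rank), every character of the block vanishes on the
`p`-singular elements. -/
theorem vanish_singular_of_card_eq_blockRank {G : Type*} [Group G] [Finite G] {p : ℕ}
    [Fact p.Prime] {M : Ideal Cfsg.AlgInt} (hM : Cfsg.IsPModular p M)
    (B : Set (Cfsg.IrrCharacter G)) (hB : Cfsg.IsPBlock M B)
    (hcard : Nat.card B = Cfsg.blockRank p B) :
    ∀ χ ∈ B, ∀ u : G, p ∣ orderOf u → (χ : G → ℂ) u = 0 := by
  classical
  let _ : Fintype G := Fintype.ofFinite G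
  have hfin : Finite (Cfsg.IrrCharacter G) := Cfsg.Agent.Lib.Helper3.irr_finite
  let _ : Fintype B := Fintype.ofFinite _
  have hrange : Set.range (fun χ : B => Cfsg.pRegularPart p ((χ : Cfsg.IrrCharacter G) : G → ℂ)) =
      (fun χ : Cfsg.IrrCharacter G => Cfsg.pRegularPart p (χ : G → ℂ)) '' B := by
    ext f
    simp only [Set.mem_range, Set.mem_image, Subtype.exists, exists_prop]
  have hli : LinearIndependent ℂ
      (fun χ : B => Cfsg.pRegularPart p ((χ : Cfsg.IrrCharacter G) : G → ℂ)) := by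
    rw [linearIndependent_iff_card_eq_finrank_span, ← Nat.card_eq_fintype_card, hcard,
      hrange]
    rfl
  rw [Fintype.linearIndependent_iff] at hli
  have hvan : ∀ u : G, p ∣ orderOf u → ∀ χ : B, ((χ : Cfsg.IrrCharacter G) : G → ℂ) u⁻¹ = 0 := by
    intro u hu
    apply hli (fun χ : B => ((χ : Cfsg.IrrCharacter G) : G → ℂ) u⁻¹)
    funext g
    rw [Finset.sum_apply]
    simp only [Pi.smul_apply, smul_eq_mul, Pi.zero_apply]
    by_cases hg : Cfsg.IsPRegular p g
    · have horth := Cfsg.Agent.Lib.Helper78.block_orth_regular_singular hM B hB hg hu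
      rw [← finsum_set_coe_eq_finsum_mem, finsum_eq_sum_of_fintype] at horth
      rw [← horth]
      refine Finset.sum_congr rfl (fun χ _ => ?_)
      simp only [Cfsg.pRegularPart, if_pos hg]
      ring
    · apply Finset.sum_eq_zero
      intro χ _
      simp only [Cfsg.pRegularPart, if_neg hg, mul_zero]
  intro χ hχ u hu
  have h := hvan u⁻¹ (by rw [orderOf_inv]; exact hu) ⟨χ, hχ⟩
  rw [inv_inv] at h
  exact h

end Cfsg.Agent.Lib.Helper79
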