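import Mathlib
import Cfsg.Prelude.Def_Blocks
import Cfsg.Agent.Lib.Helper16.NormalIdem
import Cfsg.Agent.Lib.Helper75.Clifford
import Cfsg.Agent.Lib.Helper79.CharSum

/-!
# Clifford's theorem: the restriction to a normal subgroup as a multiple of an orbit sum
-/

set_option autoImplicit false

namespace Cfsg.Agent.Lib.Helper79

open Cfsg Cfsg.Agent.Lib.Helper16

section CliffordRatio

variable {G : Type*} [Group G] [Fintype G] (N : Subgroup G) [N.Normal] [Fintype N]

/-- **Clifford**: the restriction of an irreducible character lying over `θ` to the normal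
subgroup `N` is the multiplicity of `θ` times the sum of the conjugates of `θ`. -/
theorem res_eq_mul_orbit_sum {χ : G → ℂ} (hχ : Cfsg.IsIrrCharacter G χ)
    (θ : Cfsg.IrrCharacter N)
    (h : Cfsg.classInner (fun n : N => χ n) (θ : N → ℂ) ≠ 0) (n : N) :
    χ n = Cfsg.classInner (fun n : N => χ n) (θ : N → ℂ) *
      ∑ θ' ∈ orbitIrr (G := G) N θ, (θ' : N → ℂ) n := by
  classical
  let _ : Fintype (Cfsg.IrrCharacter N) := Fintype.ofFinite _
  have hcl : Cfsg.IsClassFunction G χ :=
    Cfsg.Agent.Lib.Helper3.isClassFunction_of_isCharacter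
      (Cfsg.Agent.Lib.Helper3.isCharacter_of_irr hχ)
  have hexp := Cfsg.Agent.Lib.Helper3.classFunction_expansion'
    (Cfsg.Agent.Lib.Helper75.isClassFunction_res N hcl)
  have hcoef : ∀ θ' : Cfsg.IrrCharacter N,
      Cfsg.classInner (fun n : N => χ n) (θ' : N → ℂ) =
        if θ' ∈ orbitIrr (G := G) N θ then Cfsg.classInner (fun n : N => χ n) (θ : N → ℂ)
        else 0 := by
    intro θ'
    by_cases hθ' : θ' ∈ orbitIrr (G := G) N θ
    · rw [if_pos hθ']
      unfold orbitIrr at hθ'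
      obtain ⟨g, -, rfl⟩ := Finset.mem_image.mp hθ'
      exact Cfsg.Agent.Lib.Helper75.classInner_res_conjChar N hcl (θ : N → ℂ) g
    · rw [if_neg hθ']
      by_contra hne
      obtain ⟨g, hg⟩ := Cfsg.Agent.Lib.Helper75.clifford_conj N hχ θ.2 θ'.2 h hne
      apply hθ'
      unfold orbitIrr
      exact Finset.mem_image.mpr ⟨g, Finset.mem_univ _, Subtype.ext hg⟩
  have h2 : χ n = ∑ θ' : Cfsg.IrrCharacter N,
      Cfsg.classInner (fun n : N => χ n) (θ' : N → ℂ) * (θ' : N → ℂ) n := by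
    have h3 := congrFun hexp n
    simpa [Finset.sum_apply] using h3
  rw [h2, Finset.mul_sum, ← Finset.sum_subset (Finset.subset_univ (orbitIrr (G := G) N θ))]
  · refine Finset.sum_congr rfl (fun θ' hθ' => ?_)
    rw [hcoef θ', if_pos hθ']
  · intro θ' _ hθ'
    rw [hcoef θ', if_neg hθ', zero_mul]

/-- Two irreducible characters lying over the same irreducible character of a normal subgroup
have the same normalised values on that subgroup. -/
theorem div_one_eq_of_common_constituent {χ ψ : G → ℂ} (hχ : Cfsg.IsIrrCharacter G χ)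
    (hψ : Cfsg.IsIrrCharacter G ψ) (θ : Cfsg.IrrCharacter N)
    (h1 : Cfsg.classInner (fun n : N => χ n) (θ : N → ℂ) ≠ 0)
    (h2 : Cfsg.classInner (fun n : N => ψ n) (θ : N → ℂ) ≠ 0) {g : G} (hg : g ∈ N) :
    χ g / χ 1 = ψ g / ψ 1 := by
  have a1 := res_eq_mul_orbit_sum N hχ θ h1 ⟨g, hg⟩
  have a2 := res_eq_mul_orbit_sum N hχ θ h1 1
  have b1 := res_eq_mul_orbit_sum N hψ θ h2 ⟨g, hg⟩
  have b2 := res_eq_mul_orbit_sum N hψ θ h2 1
  have e1 : ((⟨g, hg⟩ : N) : G) = g := rfl
  have e2 : ((1 : N) : G) = 1 := rfl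
  rw [e1] at a1 b1
  rw [e2] at a2 b2
  rw [a1, a2, b1, b2, mul_div_mul_left _ _ h1, mul_div_mul_left _ _ h2]

end CliffordRatio

end Cfsg.Agent.Lib.Helper79
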