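import Mathlib
import Cfsg.Agent.Lib.Helper76.ContribUnit
import Cfsg.Agent.Lib.Helper78.BlockOrth
import Cfsg.Agent.Lib.Helper26.VChar
import Cfsg.Agent.Lib.Helper81.CharCore
import Cfsg.Agent.S4667

/-!
# The characters of a `2`-block with four characters and defect two

Contributions `4 ⟨χ⁰, χ⟩` are positive integers summing to `4 l(B)`.  If `l(B) = 1` all
characters of the block agree on the `2`-regular elements; if `l(B) = 3` there is a sign vector
`δ` with `χ = δ_χ χ₀` on the `2`-singular elements and `∑ δ_χ χ = 0` on the `2`-regular ones.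
-/

set_option autoImplicit false
set_option linter.unusedSectionVars false
set_option linter.style.haveILetI false

namespace Cfsg.Agent.Lib.Helper79

open Cfsg Cfsg.Agent.Lib.Helper16
open scoped ComplexConjugate

section KleinStruct

variable {G : Type*} [Group G] [Fintype G] {M : Ideal Cfsg.AlgInt}

/-- the inner product of the truncation of an irreducible character with the character is a
normalized sum of squares -/
theorem truncInner_normSq (p : ℕ) (χ : Cfsg.IrrCharacter G) :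
    Cfsg.classInner (Cfsg.pRegularPart p (χ : G → ℂ)) (χ : G → ℂ) =
      (((Nat.card G : ℝ)⁻¹ * ∑ x : G, Complex.normSq (Cfsg.pRegularPart p (χ : G → ℂ) x) : ℝ) : ℂ) := by
  classical
  unfold Cfsg.classInner
  push_cast
  congr 1
  refine Finset.sum_congr rfl (fun x _ => ?_)
  unfold Cfsg.pRegularPart
  by_cases hx : Cfsg.IsPRegular p x
  · simp only [if_pos hx]
    rw [Complex.mul_conj]
  · simp only [if_neg hx]
    simp

theorem irrInner_normSq (χ : Cfsg.IrrCharacter G) :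
    (1 : ℂ) = (((Nat.card G : ℝ)⁻¹ * ∑ x : G, Complex.normSq ((χ : G → ℂ) x) : ℝ) : ℂ) := by
  rw [← Cfsg.Agent.Lib.Helper26.classInner_irr_self χ.2]
  unfold Cfsg.classInner
  push_cast
  congr 1
  refine Finset.sum_congr rfl (fun x _ => ?_)
  rw [Complex.mul_conj]

theorem truncInner_eq (p : ℕ) (χ : Cfsg.IrrCharacter G) :
    Cfsg.classInner (Cfsg.pRegularPart p (χ : G → ℂ)) (χ : G → ℂ) =
      (Nat.card G : ℂ)⁻¹ * ∑ x : G, Cfsg.pRegularPart p (χ : G → ℂ) x * (χ : G → ℂ) x⁻¹ := by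
  unfold Cfsg.classInner
  congr 1
  refine Finset.sum_congr rfl (fun x _ => ?_)
  rw [Cfsg.Agent.Lib.Helper81.irr_inv]

/-- the contributions of a block sum to its `p`-regular rank -/
theorem sum_truncInner {p : ℕ} [Fact p.Prime] (hM : Cfsg.IsPModular p M)
    (B : Set (Cfsg.IrrCharacter G)) (hB : Cfsg.IsPBlock M B) :
    ∑ᶠ χ ∈ B, Cfsg.classInner (Cfsg.pRegularPart p (χ : G → ℂ)) (χ : G → ℂ) =
      (Cfsg.blockRank p B : ℂ) := by
  classical
  have := Cfsg.Agent.Lib.Helper81.irr_finite G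
  have hfin : B.Finite := Set.toFinite B
  have h := Cfsg.Agent.S4667.result p M hM B hB
  have hG : (Nat.card G : ℂ) ≠ 0 := by exact_mod_cast Nat.card_pos.ne'
  rw [finsum_mem_eq_finite_toFinset_sum _ hfin]
  have h2 : ∑ x : G, ∑ᶠ χ ∈ B, Cfsg.pRegularPart p (χ : G → ℂ) x * (χ : G → ℂ) x⁻¹ =
      ∑ χ ∈ hfin.toFinset, ∑ x : G, Cfsg.pRegularPart p (χ : G → ℂ) x * (χ : G → ℂ) x⁻¹ := by
    rw [Finset.sum_comm]
    refine Finset.sum_congr rfl (fun x _ => ?_)
    rw [finsum_mem_eq_finite_toFinset_sum _ hfin]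
  rw [h2] at h
  have h3 : ∑ χ ∈ hfin.toFinset,
      Cfsg.classInner (Cfsg.pRegularPart p (χ : G → ℂ)) (χ : G → ℂ) =
      (Nat.card G : ℂ)⁻¹ * ∑ χ ∈ hfin.toFinset,
        ∑ x : G, Cfsg.pRegularPart p (χ : G → ℂ) x * (χ : G → ℂ) x⁻¹ := by
    rw [Finset.mul_sum]
    exact Finset.sum_congr rfl (fun χ _ => truncInner_eq p χ)
  rw [h3, ← h]
  field_simp

/-- the truncation of an irreducible character has positive norm -/
theorem truncNorm_pos {p : ℕ} (hp : p.Prime) (χ : Cfsg.IrrCharacter G) :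
    0 < (Nat.card G : ℝ)⁻¹ * ∑ x : G, Complex.normSq (Cfsg.pRegularPart p (χ : G → ℂ) x) := by
  classical
  have hG : (0 : ℝ) < (Nat.card G : ℝ) := by exact_mod_cast Nat.card_pos
  apply mul_pos (inv_pos.mpr hG)
  have h1 : Complex.normSq (Cfsg.pRegularPart p (χ : G → ℂ) 1) ≤
      ∑ x : G, Complex.normSq (Cfsg.pRegularPart p (χ : G → ℂ) x) :=
    Finset.single_le_sum (f := fun x => Complex.normSq (Cfsg.pRegularPart p (χ : G → ℂ) x))
      (fun x _ => Complex.normSq_nonneg _) (Finset.mem_univ 1)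
  have h2 : 0 < Complex.normSq (Cfsg.pRegularPart p (χ : G → ℂ) 1) := by
    rw [Complex.normSq_pos]
    unfold Cfsg.pRegularPart
    have hreg : Cfsg.IsPRegular p (1 : G) := by
      unfold Cfsg.IsPRegular
      rw [orderOf_one]
      exact hp.one_lt.ne' ∘ Nat.dvd_one.mp
    simp only [if_pos hreg]
    exact Cfsg.Agent.Lib.Helper81.irr_one_ne_zero χ
  linarith

/-- **Contributions**: `2 ^ d ⟨χ⁰, χ⟩` for `χ` in a block of defect `d` are positive integers
with sum `2 ^ d l(B)`. -/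
theorem exists_contrib_int (hM : Cfsg.IsPModular 2 M) (B : Set (Cfsg.IrrCharacter G))
    (hB : Cfsg.IsPBlock M B) :
    ∃ z : Cfsg.IrrCharacter G → ℤ, (∀ χ ∈ B, 1 ≤ z χ) ∧
      (∀ χ ∈ B, ((2 : ℂ) ^ Cfsg.blockDefect 2 B) *
        Cfsg.classInner (Cfsg.pRegularPart 2 (χ : G → ℂ)) (χ : G → ℂ) = (z χ : ℂ)) ∧
      ∑ᶠ χ ∈ B, z χ = 2 ^ Cfsg.blockDefect 2 B * (Cfsg.blockRank 2 B : ℤ) := by
  classical
  haveI : Fact (Nat.Prime 2) := ⟨Nat.prime_two⟩
  have := Cfsg.Agent.Lib.Helper81.irr_finite G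
  letI : Fintype (Cfsg.IrrCharacter G) := Fintype.ofFinite _
  have hfin : B.Finite := Set.toFinite B
  have hex : ∀ χ : Cfsg.IrrCharacter G, ∃ z : ℤ, χ ∈ B →
      ((2 : ℂ) ^ Cfsg.blockDefect 2 B) *
        Cfsg.classInner (Cfsg.pRegularPart 2 (χ : G → ℂ)) (χ : G → ℂ) = (z : ℂ) := by
    intro χ
    by_cases hχ : χ ∈ B
    · obtain ⟨z, -, hz⟩ := Cfsg.Agent.Lib.Helper76.exists_int_truncInner hM B hB χ hχ
      refine ⟨z χ, fun _ => ?_⟩
      rw [← hz χ]
      push_cast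
      rfl
    · exact ⟨0, fun h => absurd h hχ⟩
  choose z hz using hex
  refine ⟨z, ?_, hz, ?_⟩
  · intro χ hχ
    have h1 := hz χ hχ
    rw [truncInner_normSq] at h1
    have h2 : ((2 : ℝ) ^ Cfsg.blockDefect 2 B) *
        ((Nat.card G : ℝ)⁻¹ * ∑ x : G, Complex.normSq (Cfsg.pRegularPart 2 (χ : G → ℂ) x)) =
        (z χ : ℝ) := by
      exact_mod_cast h1
    have h3 := truncNorm_pos Nat.prime_two χ
    have h4 : (0 : ℝ) < (z χ : ℝ) := by
      rw [← h2]
      positivity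
    have h5 : (0 : ℤ) < z χ := by exact_mod_cast h4
    omega
  · have hsum := sum_truncInner hM B hB
    rw [finsum_mem_eq_finite_toFinset_sum _ hfin] at hsum ⊢
    have h1 : ((∑ χ ∈ hfin.toFinset, z χ : ℤ) : ℂ) =
        ((2 ^ Cfsg.blockDefect 2 B * (Cfsg.blockRank 2 B : ℤ) : ℤ) : ℂ) := by
      push_cast
      rw [← hsum, Finset.mul_sum]
      refine Finset.sum_congr rfl (fun χ hχ => ?_)
      exact (hz χ ((Set.Finite.mem_toFinset hfin).mp hχ)).symm
    exact_mod_cast h1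

/-- if the block has rank one and all contributions are equal, the characters of the block
agree on the `p`-regular elements -/
theorem equal_regular_of_contrib_eq {p : ℕ} (hp : p.Prime) (B : Set (Cfsg.IrrCharacter G))
    (hrank : Cfsg.blockRank p B = 1)
    (heq : ∀ χ ∈ B, ∀ χ' ∈ B,
      Cfsg.classInner (Cfsg.pRegularPart p (χ : G → ℂ)) (χ : G → ℂ) =
        Cfsg.classInner (Cfsg.pRegularPart p (χ' : G → ℂ)) (χ' : G → ℂ)) :
    ∀ χ ∈ B, ∀ χ' ∈ B, ∀ s : G, ¬ p ∣ orderOf s → (χ : G → ℂ) s = (χ' : G → ℂ) s := by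
  classical
  intro χ hχ χ' hχ' s hs
  have hreg1 : Cfsg.IsPRegular p (1 : G) := by
    unfold Cfsg.IsPRegular
    rw [orderOf_one]
    exact hp.one_lt.ne' ∘ Nat.dvd_one.mp
  unfold Cfsg.blockRank at hrank
  have hmem : ∀ ψ ∈ B, Cfsg.pRegularPart p (ψ : G → ℂ) ∈ Submodule.span ℂ
      ((fun χ : Cfsg.IrrCharacter G => Cfsg.pRegularPart p (χ : G → ℂ)) '' B) :=
    fun ψ hψ => Submodule.subset_span ⟨ψ, hψ, rfl⟩
  have hne : (⟨Cfsg.pRegularPart p (χ : G → ℂ), hmem χ hχ⟩ : ↥(Submodule.span ℂ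
      ((fun χ : Cfsg.IrrCharacter G => Cfsg.pRegularPart p (χ : G → ℂ)) '' B))) ≠ 0 := by
    intro h0
    have h1 := congrArg Subtype.val h0
    have h2 := congrFun h1 1
    simp only [Cfsg.pRegularPart, if_pos hreg1] at h2
    exact Cfsg.Agent.Lib.Helper81.irr_one_ne_zero χ h2
  obtain ⟨κ, hκ⟩ := (finrank_eq_one_iff_of_nonzero' _ hne).mp hrank
    ⟨Cfsg.pRegularPart p (χ' : G → ℂ), hmem χ' hχ'⟩
  have hκ' : ∀ x : G, κ * Cfsg.pRegularPart p (χ : G → ℂ) x =
      Cfsg.pRegularPart p (χ' : G → ℂ) x := by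
    intro x
    have h1 := congrArg Subtype.val hκ
    exact congrFun h1 x
  -- the norms
  have hn := heq χ hχ χ' hχ'
  rw [truncInner_normSq, truncInner_normSq] at hn
  have hn' : (Nat.card G : ℝ)⁻¹ * ∑ x : G, Complex.normSq (Cfsg.pRegularPart p (χ : G → ℂ) x) =
      (Nat.card G : ℝ)⁻¹ * ∑ x : G, Complex.normSq (Cfsg.pRegularPart p (χ' : G → ℂ) x) := by
    exact_mod_cast hn
  have hsum : ∑ x : G, Complex.normSq (Cfsg.pRegularPart p (χ' : G → ℂ) x) =
      Complex.normSq κ * ∑ x : G, Complex.normSq (Cfsg.pRegularPart p (χ : G → ℂ) x) := by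
    rw [Finset.mul_sum]
    refine Finset.sum_congr rfl (fun x _ => ?_)
    rw [← hκ' x, Complex.normSq_mul]
  have hpos := truncNorm_pos hp χ
  rw [hsum] at hn'
  have hκ1 : Complex.normSq κ = 1 := by
    have hA : (Nat.card G : ℝ)⁻¹ *
        ∑ x : G, Complex.normSq (Cfsg.pRegularPart p (χ : G → ℂ) x) ≠ 0 := hpos.ne'
    have hB' : (Nat.card G : ℝ)⁻¹ * (Complex.normSq κ *
        ∑ x : G, Complex.normSq (Cfsg.pRegularPart p (χ : G → ℂ) x)) =
        Complex.normSq κ * ((Nat.card G : ℝ)⁻¹ *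
        ∑ x : G, Complex.normSq (Cfsg.pRegularPart p (χ : G → ℂ) x)) := by ring
    rw [hB'] at hn'
    have hC : (1 - Complex.normSq κ) * ((Nat.card G : ℝ)⁻¹ *
        ∑ x : G, Complex.normSq (Cfsg.pRegularPart p (χ : G → ℂ) x)) = 0 := by linarith
    rcases mul_eq_zero.mp hC with h | h
    · linarith
    · exact absurd h hA
  -- the value at the identity
  have h1 := hκ' 1
  simp only [Cfsg.pRegularPart, if_pos hreg1] at h1
  obtain ⟨n, hn0, hn1⟩ := Cfsg.Agent.Lib.Helper81.irr_one_eq χ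
  obtain ⟨n', hn0', hn1'⟩ := Cfsg.Agent.Lib.Helper81.irr_one_eq χ'
  rw [hn1, hn1'] at h1
  have hnC : (n : ℂ) ≠ 0 := by exact_mod_cast hn0.ne'
  have hκv : κ = (((n' : ℝ) / (n : ℝ) : ℝ) : ℂ) := by
    push_cast
    field_simp
    linear_combination h1
  have hκone : κ = 1 := by
    rw [hκv, Complex.normSq_ofReal] at hκ1
    have hq : (0 : ℝ) < (n' : ℝ) / (n : ℝ) := by
      apply div_pos
      · exact_mod_cast hn0'
      · exact_mod_cast hn0
    have hq1 : (n' : ℝ) / (n : ℝ) = 1 := by nlinarith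
    rw [hκv, hq1]
    simp
  have h2 := hκ' s
  have hsreg : Cfsg.IsPRegular p s := hs
  simp only [Cfsg.pRegularPart, if_pos hsreg] at h2
  rw [hκone, one_mul] at h2
  exact h2

/-- **Rank one**: in a `2`-block of rank one whose defect `d` satisfies `d ≤ 1`, or `d = 2`
with exactly four characters, all characters agree on the `2`-regular elements. -/
theorem equal_regular_of_rank_one (hM : Cfsg.IsPModular 2 M) (B : Set (Cfsg.IrrCharacter G))
    (hB : Cfsg.IsPBlock M B) (hrank : Cfsg.blockRank 2 B = 1)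
    (hd : Cfsg.blockDefect 2 B ≤ 1 ∨ (Cfsg.blockDefect 2 B = 2 ∧ Nat.card B = 4)) :
    ∀ χ ∈ B, ∀ χ' ∈ B, ∀ s : G, ¬ 2 ∣ orderOf s → (χ : G → ℂ) s = (χ' : G → ℂ) s := by
  classical
  have := Cfsg.Agent.Lib.Helper81.irr_finite G
  have hfin : B.Finite := Set.toFinite B
  obtain ⟨z, hz1, hz, hzsum⟩ := exists_contrib_int hM B hB
  rw [hrank, finsum_mem_eq_finite_toFinset_sum _ hfin] at hzsum
  have hzeq : ∀ χ ∈ B, ∀ χ' ∈ B, z χ = z χ' := by
    intro χ hχ χ' hχ'
    by_cases hne : χ = χ'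
    · rw [hne]
    have hχf : χ ∈ hfin.toFinset := (Set.Finite.mem_toFinset hfin).mpr hχ
    have hχf' : χ' ∈ hfin.toFinset := (Set.Finite.mem_toFinset hfin).mpr hχ'
    rcases hd with hd | ⟨hd, hcard⟩
    · -- the two contributions already exhaust the sum
      have hsub : ({χ, χ'} : Finset (Cfsg.IrrCharacter G)) ⊆ hfin.toFinset := by
        intro ψ hψ
        rw [Finset.mem_insert, Finset.mem_singleton] at hψ
        rcases hψ with rfl | rfl
        · exact hχf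
        · exact hχf'
      have hle : ∑ ψ ∈ ({χ, χ'} : Finset (Cfsg.IrrCharacter G)), z ψ ≤
          ∑ ψ ∈ hfin.toFinset, z ψ :=
        Finset.sum_le_sum_of_subset_of_nonneg hsub (fun ψ hψ _ => by
          have := hz1 ψ ((Set.Finite.mem_toFinset hfin).mp hψ)
          omega)
      rw [Finset.sum_pair hne, hzsum] at hle
      have h1 := hz1 χ hχ
      have h2 := hz1 χ' hχ'
      have h3 : (2 : ℤ) ^ Cfsg.blockDefect 2 B ≤ 2 := by
        calc (2 : ℤ) ^ Cfsg.blockDefect 2 B ≤ 2 ^ 1 :=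
              pow_le_pow_right₀ (by norm_num) hd
          _ = 2 := by norm_num
      push_cast at hle
      omega
    · -- four contributions, each at least one, with sum four
      have hcardf : hfin.toFinset.card = 4 := by
        rw [← hcard, Nat.card_coe_set_eq, Set.ncard_eq_toFinset_card B hfin]
      have hall : ∀ ψ ∈ hfin.toFinset, z ψ = 1 := by
        have hsum0 : ∑ ψ ∈ hfin.toFinset, (z ψ - 1) = 0 := by
          rw [Finset.sum_sub_distrib, hzsum, hd]
          simp [hcardf]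
        have hnn : ∀ ψ ∈ hfin.toFinset, 0 ≤ z ψ - 1 := fun ψ hψ => by
          have := hz1 ψ ((Set.Finite.mem_toFinset hfin).mp hψ)
          omega
        intro ψ hψ
        have := (Finset.sum_eq_zero_iff_of_nonneg hnn).mp hsum0 ψ hψ
        omega
      rw [hall χ hχf, hall χ' hχf']
  apply equal_regular_of_contrib_eq Nat.prime_two B hrank
  intro χ hχ χ' hχ'
  have h1 := hz χ hχ
  have h2 := hz χ' hχ'
  rw [hzeq χ hχ χ' hχ', ← h2] at h1
  have h0 : ((2 : ℂ) ^ Cfsg.blockDefect 2 B) ≠ 0 := pow_ne_zero _ (by norm_num)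
  exact mul_left_cancel₀ h0 h1

/-- **Rank three**: a `2`-block of defect two with four characters and rank three has a sign
vector `δ` with `χ = δ_χ χ₀` on the `2`-singular elements and `∑ δ_χ χ = 0` on the `2`-regular
ones. -/
theorem klein_sign_structure (hM : Cfsg.IsPModular 2 M) (B : Set (Cfsg.IrrCharacter G))
    (hB : Cfsg.IsPBlock M B) (hcard : Nat.card B = 4) (hdef : Cfsg.blockDefect 2 B = 2)
    (hrank : Cfsg.blockRank 2 B = 3) (x₀ : G) (hx₀ : 2 ∣ orderOf x₀)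
    (hx₀B : ∀ χ ∈ B, (χ : G → ℂ) x₀ ≠ 0) :
    ∃ (δ : Cfsg.IrrCharacter G → ℤ) (χ₀ : Cfsg.IrrCharacter G), χ₀ ∈ B ∧ δ χ₀ = 1 ∧
      (∀ χ ∈ B, δ χ = 1 ∨ δ χ = -1) ∧
      (∀ χ ∈ B, ∀ x : G, 2 ∣ orderOf x → (χ : G → ℂ) x = (δ χ : ℂ) * (χ₀ : G → ℂ) x) ∧
      (∀ s : G, ¬ 2 ∣ orderOf s → ∑ᶠ χ ∈ B, (δ χ : ℂ) * (χ : G → ℂ) s = 0) := by
  classical
  haveI : Fact (Nat.Prime 2) := ⟨Nat.prime_two⟩
  have hMp := isPrime_of_isPModular hM
  have := Cfsg.Agent.Lib.Helper81.irr_finite G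
  have hfin : B.Finite := Set.toFinite B
  letI : Fintype B := Fintype.ofFinite _
  have hGpos : (0 : ℝ) < (Nat.card G : ℝ) := by exact_mod_cast Nat.card_pos
  have hcardf : hfin.toFinset.card = 4 := by
    rw [← hcard, Nat.card_coe_set_eq, Set.ncard_eq_toFinset_card B hfin]
  obtain ⟨χ₀, hχ₀⟩ := IsPBlock.nonempty hMp hB
  -- the contributions are all three
  obtain ⟨z, hz1, hz, hzsum⟩ := exists_contrib_int hM B hB
  rw [hrank, hdef, finsum_mem_eq_finite_toFinset_sum _ hfin] at hzsum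
  rw [hdef] at hz
  have hsplit : ∀ χ : Cfsg.IrrCharacter G, ∑ x : G, Complex.normSq ((χ : G → ℂ) x) =
      ∑ x : G, Complex.normSq (Cfsg.pRegularPart 2 (χ : G → ℂ) x) +
      ∑ x : G, (if 2 ∣ orderOf x then Complex.normSq ((χ : G → ℂ) x) else 0) := by
    intro χ
    rw [← Finset.sum_add_distrib]
    refine Finset.sum_congr rfl (fun x _ => ?_)
    unfold Cfsg.pRegularPart Cfsg.IsPRegular
    by_cases hx : 2 ∣ orderOf x
    · simp [hx]
    · simp [hx]
  have hnorm1 : ∀ χ : Cfsg.IrrCharacter G,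
      (Nat.card G : ℝ)⁻¹ * ∑ x : G, Complex.normSq ((χ : G → ℂ) x) = 1 := by
    intro χ
    have h := irrInner_normSq χ
    exact_mod_cast h.symm
  have hzreal : ∀ χ ∈ B, (4 : ℝ) * ((Nat.card G : ℝ)⁻¹ *
      ∑ x : G, Complex.normSq (Cfsg.pRegularPart 2 (χ : G → ℂ) x)) = (z χ : ℝ) := by
    intro χ hχ
    have h1 := hz χ hχ
    rw [truncInner_normSq] at h1
    have h2 : ((2 : ℝ) ^ 2) * ((Nat.card G : ℝ)⁻¹ *
        ∑ x : G, Complex.normSq (Cfsg.pRegularPart 2 (χ : G → ℂ) x)) = (z χ : ℝ) := by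
      exact_mod_cast h1
    rw [← h2]
    norm_num
  have hsingpos : ∀ χ ∈ B, 0 < ∑ x : G,
      (if 2 ∣ orderOf x then Complex.normSq ((χ : G → ℂ) x) else 0) := by
    intro χ hχ
    have h1 : (if 2 ∣ orderOf x₀ then Complex.normSq ((χ : G → ℂ) x₀) else 0) ≤ ∑ x : G,
        (if 2 ∣ orderOf x then Complex.normSq ((χ : G → ℂ) x) else 0) :=
      Finset.single_le_sum (f := fun x => if 2 ∣ orderOf x then
        Complex.normSq ((χ : G → ℂ) x) else 0)
        (fun x _ => by split_ifs <;> simp [Complex.normSq_nonneg]) (Finset.mem_univ x₀)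
    rw [if_pos hx₀] at h1
    have h2 : 0 < Complex.normSq ((χ : G → ℂ) x₀) := Complex.normSq_pos.mpr (hx₀B χ hχ)
    linarith
  have hzle : ∀ χ ∈ B, z χ ≤ 3 := by
    intro χ hχ
    have h1 := hzreal χ hχ
    have h2 := hnorm1 χ
    rw [hsplit χ, mul_add] at h2
    have h3 := hsingpos χ hχ
    have h4 : 0 < (Nat.card G : ℝ)⁻¹ * ∑ x : G,
        (if 2 ∣ orderOf x then Complex.normSq ((χ : G → ℂ) x) else 0) :=
      mul_pos (inv_pos.mpr hGpos) h3
    have h5 : (z χ : ℝ) < 4 := by linarith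
    have h6 : z χ < 4 := by exact_mod_cast h5
    omega
  have hz3 : ∀ χ ∈ B, z χ = 3 := by
    have hsum0 : ∑ ψ ∈ hfin.toFinset, (3 - z ψ) = 0 := by
      rw [Finset.sum_sub_distrib, hzsum, Finset.sum_const, hcardf]
      norm_num
    have hnn : ∀ ψ ∈ hfin.toFinset, 0 ≤ 3 - z ψ := fun ψ hψ => by
      have := hzle ψ ((Set.Finite.mem_toFinset hfin).mp hψ)
      omega
    intro χ hχ
    have := (Finset.sum_eq_zero_iff_of_nonneg hnn).mp hsum0 χ
      ((Set.Finite.mem_toFinset hfin).mpr hχ)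
    omega
  -- the singular norm of each character
  have hsing : ∀ χ ∈ B, ∑ x : G,
      (if 2 ∣ orderOf x then Complex.normSq ((χ : G → ℂ) x) else 0) = (Nat.card G : ℝ) / 4 := by
    intro χ hχ
    have h1 := hzreal χ hχ
    rw [hz3 χ hχ] at h1
    have h2 := hnorm1 χ
    rw [hsplit χ, mul_add] at h2
    have h3 : (Nat.card G : ℝ)⁻¹ * ∑ x : G,
        (if 2 ∣ orderOf x then Complex.normSq ((χ : G → ℂ) x) else 0) = 1 / 4 := by
      push_cast at h1
      linarith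
    field_simp at h3
    linarith
  -- the relation space is a line
  let v : B → (G → ℂ) := fun χ => Cfsg.pRegularPart 2 ((χ : Cfsg.IrrCharacter G) : G → ℂ)
  have hrange : Set.range v =
      (fun χ : Cfsg.IrrCharacter G => Cfsg.pRegularPart 2 (χ : G → ℂ)) '' B := by
    ext f
    simp only [v, Set.mem_range, Set.mem_image, Subtype.exists, exists_prop]
  have hker : Module.finrank ℂ (LinearMap.ker (Fintype.linearCombination ℂ v)) = 1 := by
    have h1 := LinearMap.finrank_range_add_finrank_ker (Fintype.linearCombination ℂ v)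
    rw [Fintype.range_linearCombination, hrange, Module.finrank_fintype_fun_eq_card,
      ← Nat.card_eq_fintype_card, hcard] at h1
    have h2 : Module.finrank ℂ ↥(Submodule.span ℂ
        ((fun χ : Cfsg.IrrCharacter G => Cfsg.pRegularPart 2 (χ : G → ℂ)) '' B)) = 3 := hrank
    omega
  have hmemker : ∀ x : G, 2 ∣ orderOf x →
      (fun χ : B => ((χ : Cfsg.IrrCharacter G) : G → ℂ) x) ∈
        LinearMap.ker (Fintype.linearCombination ℂ v) := by
    intro x hx
    rw [LinearMap.mem_ker, Fintype.linearCombination_apply]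
    funext s
    rw [Finset.sum_apply]
    simp only [Pi.smul_apply, smul_eq_mul, Pi.zero_apply, v]
    by_cases hs : Cfsg.IsPRegular 2 s
    · have horth := Cfsg.Agent.Lib.Helper78.block_orth_regular_singular hM B hB (u := s)
        (g := x⁻¹) hs (by rw [orderOf_inv]; exact hx)
      rw [inv_inv, ← finsum_set_coe_eq_finsum_mem, finsum_eq_sum_of_fintype] at horth
      rw [← horth]
      refine Finset.sum_congr rfl (fun χ _ => ?_)
      simp only [Cfsg.pRegularPart, if_pos hs]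
      ring
    · apply Finset.sum_eq_zero
      intro χ _
      simp only [Cfsg.pRegularPart, if_neg hs, mul_zero]
  have hw0 : (⟨fun χ : B => ((χ : Cfsg.IrrCharacter G) : G → ℂ) x₀, hmemker x₀ hx₀⟩ :
      LinearMap.ker (Fintype.linearCombination ℂ v)) ≠ 0 := by
    intro h0
    have h1 := congrArg Subtype.val h0
    have h2 := congrFun h1 ⟨χ₀, hχ₀⟩
    exact hx₀B χ₀ hχ₀ h2
  have hline := (finrank_eq_one_iff_of_nonzero' _ hw0).mp hker
  have hF : ∀ x : G, ∃ c : ℂ, 2 ∣ orderOf x → ∀ χ ∈ B,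
      (χ : G → ℂ) x = c * (χ : G → ℂ) x₀ := by
    intro x
    by_cases hx : 2 ∣ orderOf x
    · obtain ⟨c, hc⟩ := hline ⟨_, hmemker x hx⟩
      refine ⟨c, fun _ χ hχ => ?_⟩
      have h1 := congrArg Subtype.val hc
      have h2 := congrFun h1 ⟨χ, hχ⟩
      exact h2.symm
    · exact ⟨0, fun h => absurd h hx⟩
  choose F hF using hF
  -- all values at `x₀` have the same absolute value
  have habs : ∀ χ ∈ B, Complex.normSq ((χ : G → ℂ) x₀) *
      ∑ x : G, (if 2 ∣ orderOf x then Complex.normSq (F x) else 0) = (Nat.card G : ℝ) / 4 := by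
    intro χ hχ
    rw [← hsing χ hχ, Finset.mul_sum]
    refine Finset.sum_congr rfl (fun x _ => ?_)
    by_cases hx : 2 ∣ orderOf x
    · rw [if_pos hx, if_pos hx, hF x hx χ hχ, Complex.normSq_mul]
      ring
    · rw [if_neg hx, if_neg hx, mul_zero]
  have hS0 : ∑ x : G, (if 2 ∣ orderOf x then Complex.normSq (F x) else 0) ≠ 0 := by
    intro h0
    have h1 := habs χ₀ hχ₀
    rw [h0, mul_zero] at h1
    have : (Nat.card G : ℝ) / 4 > 0 := by positivity
    linarith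
  have hnormeq : ∀ χ ∈ B, Complex.normSq ((χ : G → ℂ) x₀) =
      Complex.normSq ((χ₀ : G → ℂ) x₀) := by
    intro χ hχ
    have h1 := habs χ hχ
    rw [← habs χ₀ hχ₀] at h1
    exact mul_right_cancel₀ hS0 h1
  -- the ratios are real
  have hx₀inv : 2 ∣ orderOf x₀⁻¹ := by rw [orderOf_inv]; exact hx₀
  have hconj : ∀ χ ∈ B, conj ((χ : G → ℂ) x₀) = F x₀⁻¹ * (χ : G → ℂ) x₀ := by
    intro χ hχ
    rw [← hF x₀⁻¹ hx₀inv χ hχ, Cfsg.Agent.Lib.Helper81.irr_inv]
  have hχ₀0 : (χ₀ : G → ℂ) x₀ ≠ 0 := hx₀B χ₀ hχ₀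
  have hlam0 : F x₀⁻¹ ≠ 0 := by
    intro h0
    have h1 := hconj χ₀ hχ₀
    rw [h0, zero_mul] at h1
    exact hχ₀0 ((map_eq_zero (starRingEnd ℂ)).mp h1)
  have hratio : ∀ χ ∈ B, (χ : G → ℂ) x₀ / (χ₀ : G → ℂ) x₀ = 1 ∨
      (χ : G → ℂ) x₀ / (χ₀ : G → ℂ) x₀ = -1 := by
    intro χ hχ
    have hreal : conj ((χ : G → ℂ) x₀ / (χ₀ : G → ℂ) x₀) =
        (χ : G → ℂ) x₀ / (χ₀ : G → ℂ) x₀ := by
      rw [map_div₀, hconj χ hχ, hconj χ₀ hχ₀]
      field_simp
    obtain ⟨r, hr⟩ := Complex.conj_eq_iff_real.mp hreal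
    have hn : Complex.normSq ((χ : G → ℂ) x₀ / (χ₀ : G → ℂ) x₀) = 1 := by
      rw [Complex.normSq_div, hnormeq χ hχ]
      exact div_self (Complex.normSq_pos.mpr hχ₀0).ne'
    rw [hr, Complex.normSq_ofReal] at hn
    have hr2 : (r - 1) * (r + 1) = 0 := by nlinarith
    rcases mul_eq_zero.mp hr2 with h | h
    · left
      rw [hr]
      have : r = 1 := by linarith
      rw [this]
      simp
    · right
      rw [hr]
      have : r = -1 := by linarith
      rw [this]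
      simp
  refine ⟨fun χ => if (χ : G → ℂ) x₀ / (χ₀ : G → ℂ) x₀ = 1 then 1 else -1, χ₀, hχ₀, ?_, ?_, ?_, ?_⟩
  · simp [div_self hχ₀0]
  · intro χ _
    by_cases h : (χ : G → ℂ) x₀ / (χ₀ : G → ℂ) x₀ = 1
    · left; simp [h]
    · right; simp [h]
  · intro χ hχ x hx
    have hδ : (((if (χ : G → ℂ) x₀ / (χ₀ : G → ℂ) x₀ = 1 then 1 else -1 : ℤ) : ℂ)) =
        (χ : G → ℂ) x₀ / (χ₀ : G → ℂ) x₀ := by
      rcases hratio χ hχ with h | h
      · rw [h]; simp
      · rw [h]; norm_num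
    rw [hδ, hF x hx χ hχ, hF x hx χ₀ hχ₀]
    field_simp
  · intro s hs
    have horth := Cfsg.Agent.Lib.Helper78.block_orth_regular_singular hM B hB (u := s)
      (g := x₀⁻¹) hs hx₀inv
    rw [inv_inv] at horth
    have hmul : ∑ᶠ χ ∈ B, ((((if (χ : G → ℂ) x₀ / (χ₀ : G → ℂ) x₀ = 1 then 1 else -1 : ℤ)) : ℂ)) *
        (χ : G → ℂ) s = ((χ₀ : G → ℂ) x₀)⁻¹ *
        ∑ᶠ χ ∈ B, (χ : G → ℂ) s * (χ : G → ℂ) x₀ := by
      rw [finsum_mem_eq_finite_toFinset_sum _ hfin, finsum_mem_eq_finite_toFinset_sum _ hfin,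
        Finset.mul_sum]
      refine Finset.sum_congr rfl (fun χ hχ' => ?_)
      have hχ : χ ∈ B := (Set.Finite.mem_toFinset hfin).mp hχ'
      have hδ : (((if (χ : G → ℂ) x₀ / (χ₀ : G → ℂ) x₀ = 1 then 1 else -1 : ℤ) : ℂ)) =
          (χ : G → ℂ) x₀ / (χ₀ : G → ℂ) x₀ := by
        rcases hratio χ hχ with h | h
        · rw [h]; simp
        · rw [h]; norm_num
      rw [hδ]
      field_simp
    rw [hmul, horth, mul_zero]

end KleinStruct

end Cfsg.Agent.Lib.Helper79
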