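import Mathlib
import Cfsg.Agent.Lib.Helper76.DefectOne
import Cfsg.Agent.Lib.Helper76.PRegChar
import Cfsg.Agent.Lib.Helper76.SectionInner
import Cfsg.Agent.Lib.Helper76.Contribution
import Cfsg.Agent.Lib.Helper78.BlockOrth
import Cfsg.Agent.S0923
import Cfsg.Agent.S0925
import Cfsg.Agent.Lib.Helper79.KleinStruct

/-!
# Congruences on a section of an involution

Let `B` be a `2`-block of `G`, `u` an element with `u * u = 1`, and suppose every block `b` of
`C_G(u)` inducing `B` has defect at most two and all its characters agree on `2`-regular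
elements.  If `χ, χ' ∈ B` agree on `2`-regular elements of `G`, then for `y` of odd order
commuting with `u` the difference `χ (u y) - χ' (u y)` is twice a local integer, and twice it is
divisible by the order of the centralizer of `u y`.
-/

set_option autoImplicit false
set_option linter.unusedSectionVars false
set_option linter.style.haveILetI false

namespace Cfsg.Agent.Lib.Helper79

open Cfsg Cfsg.Agent.Lib.Helper16 Cfsg.Agent.Lib.Helper81

section SectionCongr

variable {G : Type*} [Group G] [Fintype G] {M : Ideal Cfsg.AlgInt}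

/-- an involution acts on each irreducible character of its centralizer by a sign -/
theorem classInner_section_sign (u : G) (hu : u * u = 1)
    [Fintype (Subgroup.centralizer ({u} : Set G))]
    (ψ : Cfsg.IrrCharacter (Subgroup.centralizer ({u} : Set G))) :
    ∃ ω : ℤ, (ω = 1 ∨ ω = -1) ∧ ∀ χ : Cfsg.IrrCharacter G,
      Cfsg.classInner (fun c : Subgroup.centralizer ({u} : Set G) => (χ : G → ℂ) (u * (c : G)))
        (ψ : Subgroup.centralizer ({u} : Set G) → ℂ) = (ω : ℂ) *
      Cfsg.classInner (fun c : Subgroup.centralizer ({u} : Set G) => (χ : G → ℂ) (c : G))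
        (ψ : Subgroup.centralizer ({u} : Set G) → ℂ) := by
  classical
  have huC : u ∈ Subgroup.centralizer ({u} : Set G) := by
    rw [Subgroup.mem_centralizer_iff]
    intro h hh
    rw [Set.mem_singleton_iff] at hh
    rw [hh]
  have hcen : (⟨u, huC⟩ : Subgroup.centralizer ({u} : Set G)) ∈
      Subgroup.center (Subgroup.centralizer ({u} : Set G)) := by
    rw [Subgroup.mem_center_iff]
    intro c
    apply Subtype.ext
    show (c : G) * u = u * (c : G)
    have := c.2
    rw [Subgroup.mem_centralizer_iff] at this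
    exact (this u rfl).symm
  obtain ⟨ω, h1, h2⟩ := Cfsg.Agent.Lib.Helper75.central_scalar ψ.2 _ hcen
  have hsq : ω ^ 2 = 1 := by
    have hpow : (⟨u, huC⟩ : Subgroup.centralizer ({u} : Set G)) ^ 2 = 1 := by
      apply Subtype.ext
      show u ^ 2 = 1
      rw [pow_two, hu]
    obtain ⟨k, hk⟩ := orderOf_dvd_of_pow_eq_one hpow
    rw [hk, pow_mul, h1, one_pow]
  have hω : ω = 1 ∨ ω = -1 := by
    have : (ω - 1) * (ω + 1) = 0 := by linear_combination hsq
    rcases mul_eq_zero.mp this with h | h
    · left; linear_combination h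
    · right; linear_combination h
  have hconj : ω * (starRingEnd ℂ) ω = 1 := by
    rcases hω with h | h <;> rw [h] <;> simp
  have hmain : ∀ χ : Cfsg.IrrCharacter G,
      Cfsg.classInner (fun c : Subgroup.centralizer ({u} : Set G) => (χ : G → ℂ) (u * (c : G)))
        (ψ : Subgroup.centralizer ({u} : Set G) → ℂ) = ω *
      Cfsg.classInner (fun c : Subgroup.centralizer ({u} : Set G) => (χ : G → ℂ) (c : G))
        (ψ : Subgroup.centralizer ({u} : Set G) → ℂ) := by
    intro χ
    have h3 := Cfsg.Agent.Lib.Helper76.classInner_sec_pow (Subgroup.centralizer ({u} : Set G))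
      (⟨u, huC⟩ : Subgroup.centralizer ({u} : Set G)) hcen χ ψ ω h2 hconj 1
    simpa using h3
  rcases hω with h | h
  · exact ⟨1, Or.inl rfl, fun χ => by rw [hmain χ, h]; simp⟩
  · exact ⟨-1, Or.inr rfl, fun χ => by rw [hmain χ, h]; simp⟩

/-- the centralizer of `u * y` in `G` and the centralizer of `y` in `C_G(u)` have the same
order, for an involution `u` and an element `y` of odd order commuting with it -/
theorem card_centralizer_section (u y : G) (hu : u * u = 1) (hy : ¬ 2 ∣ orderOf y)
    (hc : u * y = y * u) (hyC : y ∈ Subgroup.centralizer ({u} : Set G)) :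
    Nat.card (Subgroup.centralizer
      ({(⟨y, hyC⟩ : Subgroup.centralizer ({u} : Set G))} : Set (Subgroup.centralizer ({u} : Set G)))) =
    Nat.card (Subgroup.centralizer ({u * y} : Set G)) := by
  classical
  have hcomm : Commute u y := hc
  -- `u` is a power of `u * y`
  have hodd : ∃ m : ℕ, orderOf y = 2 * m + 1 := by
    obtain ⟨m, hm | hm⟩ := Nat.even_or_odd' (orderOf y)
    · exact absurd ⟨m, hm⟩ hy
    · exact ⟨m, hm⟩
  obtain ⟨m, hm⟩ := hodd
  have hupow : (u * y) ^ (orderOf y) = u := by
    rw [hcomm.mul_pow, pow_orderOf_eq_one, mul_one, hm, pow_succ, pow_mul, pow_two, hu, one_pow,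
      one_mul]
  have key : ∀ g : G, (u * y) * g = g * (u * y) ↔ (u * g = g * u ∧ y * g = g * y) := by
    intro g
    constructor
    · intro h
      have h1 : Commute (u * y) g := h
      have h2 : Commute u g := by
        have := h1.pow_left (orderOf y)
        rwa [hupow] at this
      refine ⟨h2.eq, ?_⟩
      have h3 : Commute (u⁻¹ * (u * y)) g := (h2.inv_left).mul_left h1
      rw [inv_mul_cancel_left] at h3
      exact h3.eq
    · rintro ⟨h1, h2⟩
      rw [mul_assoc, h2, ← mul_assoc, h1, mul_assoc]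
  refine Nat.card_congr ⟨fun c => ⟨(c.1 : G), ?_⟩, fun c => ⟨⟨c.1, ?_⟩, ?_⟩, ?_, ?_⟩
  · have h1 := c.2
    rw [Subgroup.mem_centralizer_iff] at h1
    have h2 := h1 _ rfl
    have h3 : y * (c.1 : G) = (c.1 : G) * y := congrArg Subtype.val h2
    have h4 := c.1.2
    rw [Subgroup.mem_centralizer_iff] at h4
    have h5 := h4 u rfl
    rw [Subgroup.mem_centralizer_iff]
    intro h hh
    rw [Set.mem_singleton_iff] at hh
    rw [hh]
    exact (key _).mpr ⟨h5, h3⟩
  · have h1 := c.2
    rw [Subgroup.mem_centralizer_iff] at h1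
    have h2 := (key _).mp (h1 _ rfl)
    rw [Subgroup.mem_centralizer_iff]
    intro h hh
    rw [Set.mem_singleton_iff] at hh
    rw [hh]
    exact h2.1
  · have h1 := c.2
    rw [Subgroup.mem_centralizer_iff] at h1
    have h2 := (key _).mp (h1 _ rfl)
    rw [Subgroup.mem_centralizer_iff]
    intro h hh
    rw [Set.mem_singleton_iff] at hh
    rw [hh]
    exact Subtype.ext h2.2
  · intro c
    rfl
  · intro c
    rfl

/-- **Congruence on the section of an involution.** -/
theorem section_congr (hM : Cfsg.IsPModular 2 M) (B : Set (Cfsg.IrrCharacter G))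
    (hB : Cfsg.IsPBlock M B) (u : G) (hu : u * u = 1)
    (hloc : ∀ b : Set (Cfsg.IrrCharacter (Subgroup.centralizer ({u} : Set G))),
      Cfsg.IsInducedBlock M (Subgroup.centralizer ({u} : Set G)) b B →
        Cfsg.blockDefect 2 b ≤ 2 ∧ ∀ ψ ∈ b, ∀ ψ' ∈ b,
          ∀ s : Subgroup.centralizer ({u} : Set G), ¬ 2 ∣ orderOf s →
            (ψ : Subgroup.centralizer ({u} : Set G) → ℂ) s =
              (ψ' : Subgroup.centralizer ({u} : Set G) → ℂ) s)
    (χ χ' : Cfsg.IrrCharacter G) (hχ : χ ∈ B) (hχ' : χ' ∈ B)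
    (hreg : ∀ s : G, ¬ 2 ∣ orderOf s → (χ : G → ℂ) s = (χ' : G → ℂ) s)
    (y : G) (hy : ¬ 2 ∣ orderOf y) (hc : u * y = y * u) :
    MemLocalRing M (((χ : G → ℂ) (u * y) - (χ' : G → ℂ) (u * y)) / 2) ∧
    MemLocalRing M (2 * ((χ : G → ℂ) (u * y) - (χ' : G → ℂ) (u * y)) /
      (Nat.card (Subgroup.centralizer ({u * y} : Set G)) : ℂ)) := by
  classical
  haveI : Fact (Nat.Prime 2) := ⟨Nat.prime_two⟩
  have hMp := isPrime_of_isPModular hM
  letI : Fintype (Subgroup.centralizer ({u} : Set G)) := Fintype.ofFinite _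
  have := Cfsg.Agent.Lib.Helper81.irr_finite (Subgroup.centralizer ({u} : Set G))
  letI : Fintype (Cfsg.IrrCharacter (Subgroup.centralizer ({u} : Set G))) := Fintype.ofFinite _
  have hyC : y ∈ Subgroup.centralizer ({u} : Set G) := by
    rw [Subgroup.mem_centralizer_iff]
    intro h hh
    rw [Set.mem_singleton_iff] at hh
    rw [hh]
    exact hc
  obtain ⟨yC, hyCdef⟩ : ∃ yC : Subgroup.centralizer ({u} : Set G), yC = ⟨y, hyC⟩ := ⟨_, rfl⟩
  have hyCval : (yC : G) = y := by rw [hyCdef]
  have hyC' : ¬ 2 ∣ orderOf yC := by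
    rw [← Subgroup.orderOf_coe, hyCval]
    exact hy
  have hux : ∃ k : ℕ, orderOf u = 2 ^ k := by
    have h2 : orderOf u ∣ 2 := orderOf_dvd_of_pow_eq_one (by rw [pow_two, hu])
    rcases (Nat.dvd_prime Nat.prime_two).mp h2 with h | h
    · exact ⟨0, by rw [h, pow_zero]⟩
    · exact ⟨1, by rw [h, pow_one]⟩
  have hcardC := card_centralizer_section u y hu hy hc hyC
  rw [← hyCdef] at hcardC
  have e1 := Cfsg.Agent.Lib.Helper76.classFun_eq_sum_blockPart hMp _
    (Cfsg.Agent.Lib.Helper76.isClassFunction_section χ u) yC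
  have e2 := Cfsg.Agent.Lib.Helper76.classFun_eq_sum_blockPart hMp _
    (Cfsg.Agent.Lib.Helper76.isClassFunction_section χ' u) yC
  beta_reduce at e1 e2
  rw [hyCval] at e1 e2
  -- unfolding of block parts
  have hbp : ∀ (b : Set (Cfsg.IrrCharacter (Subgroup.centralizer ({u} : Set G))))
      (φ : Subgroup.centralizer ({u} : Set G) → ℂ) (s : Subgroup.centralizer ({u} : Set G)),
      Cfsg.blockPart b φ s = ∑ ψ ∈ Finset.univ.filter (fun ψ => ψ ∈ b),
        Cfsg.classInner φ (ψ : Subgroup.centralizer ({u} : Set G) → ℂ) *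
          (ψ : Subgroup.centralizer ({u} : Set G) → ℂ) s := by
    intro b φ s
    have h0 : Cfsg.blockPart b φ s =
        ∑ᶠ ψ ∈ b, Cfsg.classInner φ (ψ : Subgroup.centralizer ({u} : Set G) → ℂ) *
          (ψ : Subgroup.centralizer ({u} : Set G) → ℂ) s := by
      unfold Cfsg.blockPart
      have : (Fintype.ofFinite (Subgroup.centralizer ({u} : Set G))) =
          ‹Fintype (Subgroup.centralizer ({u} : Set G))› := Subsingleton.elim _ _
      rw [this]
    rw [h0, finsum_mem_eq_sum_ite, Finset.sum_filter]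
  have key : ∀ b ∈ Finset.univ.image
      (fun ψ : Cfsg.IrrCharacter (Subgroup.centralizer ({u} : Set G)) =>
        Cfsg.blockOf M (ψ : Subgroup.centralizer ({u} : Set G) → ℂ)),
      MemLocalRing M ((Cfsg.blockPart b
          (fun c : Subgroup.centralizer ({u} : Set G) => (χ : G → ℂ) (u * (c : G))) yC -
        Cfsg.blockPart b
          (fun c : Subgroup.centralizer ({u} : Set G) => (χ' : G → ℂ) (u * (c : G))) yC) / 2) ∧
      MemLocalRing M (2 * (Cfsg.blockPart b
          (fun c : Subgroup.centralizer ({u} : Set G) => (χ : G → ℂ) (u * (c : G))) yC -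
        Cfsg.blockPart b
          (fun c : Subgroup.centralizer ({u} : Set G) => (χ' : G → ℂ) (u * (c : G))) yC) /
        (Nat.card (Subgroup.centralizer ({u * y} : Set G)) : ℂ)) := by
    intro b hb
    obtain ⟨ψ₀, -, rfl⟩ := Finset.mem_image.mp hb
    have hbb : Cfsg.IsPBlock M
        (Cfsg.blockOf M (ψ₀ : Subgroup.centralizer ({u} : Set G) → ℂ)) := ⟨ψ₀, rfl⟩
    have hψ₀ := mem_blockOf_self hMp ψ₀
    by_cases hind : Cfsg.IsInducedBlock M (Subgroup.centralizer ({u} : Set G))
        (Cfsg.blockOf M (ψ₀ : Subgroup.centralizer ({u} : Set G) → ℂ)) B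
    · obtain ⟨hdef, hagree⟩ := hloc _ hind
      -- signs and multiplicities
      have hsign := fun ψ : Cfsg.IrrCharacter (Subgroup.centralizer ({u} : Set G)) =>
        classInner_section_sign u hu ψ
      choose ω hω hωχ using hsign
      obtain ⟨m, hm⟩ := Cfsg.Agent.Lib.Helper26.character_expansion
        (Cfsg.Agent.Lib.Helper75.isCharacter_res (Subgroup.centralizer ({u} : Set G))
          (Cfsg.Agent.Lib.Helper26.isCharacter_of_irr χ.2))
      obtain ⟨m', hm'⟩ := Cfsg.Agent.Lib.Helper26.character_expansion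
        (Cfsg.Agent.Lib.Helper75.isCharacter_res (Subgroup.centralizer ({u} : Set G))
          (Cfsg.Agent.Lib.Helper26.isCharacter_of_irr χ'.2))
      have hmi : ∀ ψ : Cfsg.IrrCharacter (Subgroup.centralizer ({u} : Set G)),
          Cfsg.classInner (fun c : Subgroup.centralizer ({u} : Set G) => (χ : G → ℂ) (c : G))
            (ψ : Subgroup.centralizer ({u} : Set G) → ℂ) = (m ψ : ℂ) := by
        intro ψ
        rw [hm]
        exact Cfsg.Agent.Lib.Helper26.classInner_expansion_irr _ ψ
      have hmi' : ∀ ψ : Cfsg.IrrCharacter (Subgroup.centralizer ({u} : Set G)),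
          Cfsg.classInner (fun c : Subgroup.centralizer ({u} : Set G) => (χ' : G → ℂ) (c : G))
            (ψ : Subgroup.centralizer ({u} : Set G) → ℂ) = (m' ψ : ℂ) := by
        intro ψ
        rw [hm']
        exact Cfsg.Agent.Lib.Helper26.classInner_expansion_irr _ ψ
      -- the difference of restrictions
      have hdiff : (fun c : Subgroup.centralizer ({u} : Set G) =>
          (χ : G → ℂ) (c : G) - (χ' : G → ℂ) (c : G)) =
          ∑ ψ : Cfsg.IrrCharacter (Subgroup.centralizer ({u} : Set G)),
            ((m ψ : ℂ) - (m' ψ : ℂ)) • (ψ : Subgroup.centralizer ({u} : Set G) → ℂ) := by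
        have h1 : (fun c : Subgroup.centralizer ({u} : Set G) =>
            (χ : G → ℂ) (c : G) - (χ' : G → ℂ) (c : G)) =
            (fun c : Subgroup.centralizer ({u} : Set G) => (χ : G → ℂ) (c : G)) -
            (fun c : Subgroup.centralizer ({u} : Set G) => (χ' : G → ℂ) (c : G)) := rfl
        rw [h1, hm, hm', ← Finset.sum_sub_distrib]
        refine Finset.sum_congr rfl fun ψ _ => ?_
        rw [sub_smul]
      have hdi : ∀ ψ : Cfsg.IrrCharacter (Subgroup.centralizer ({u} : Set G)),
          Cfsg.classInner (fun c : Subgroup.centralizer ({u} : Set G) =>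
            (χ : G → ℂ) (c : G) - (χ' : G → ℂ) (c : G))
            (ψ : Subgroup.centralizer ({u} : Set G) → ℂ) = (m ψ : ℂ) - (m' ψ : ℂ) := by
        intro ψ
        rw [hdiff]
        exact Cfsg.Agent.Lib.Helper26.classInner_expansion_irr _ ψ
      -- the block part of the difference vanishes at 1
      have hcf : Cfsg.IsClassFunction (Subgroup.centralizer ({u} : Set G))
          (fun c : Subgroup.centralizer ({u} : Set G) =>
            (χ : G → ℂ) (c : G) - (χ' : G → ℂ) (c : G)) := by
        intro g h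
        show (χ : G → ℂ) ((h * g * h⁻¹ : Subgroup.centralizer ({u} : Set G)) : G) -
          (χ' : G → ℂ) ((h * g * h⁻¹ : Subgroup.centralizer ({u} : Set G)) : G) = _
        have e : ((h * g * h⁻¹ : Subgroup.centralizer ({u} : Set G)) : G) =
            (h : G) * (g : G) * (h : G)⁻¹ := by push_cast; rfl
        rw [e, Cfsg.Agent.Lib.Helper81.irr_conj_class χ _ _,
          Cfsg.Agent.Lib.Helper81.irr_conj_class χ' _ _]
      have hvan := (Cfsg.Agent.S0925.result 2 M hM).1 _ hcf
        (1 : Subgroup.centralizer ({u} : Set G)) ⟨0, by simp⟩ (by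
          intro w z hwz hz
          have hz1 : z = 1 := by
            rw [isConj_one_right] at hz
            exact hz
          subst hz1
          obtain ⟨t, ht, -, -, ht'⟩ := hwz
          rw [one_mul] at ht
          subst ht
          have : ¬ 2 ∣ orderOf (t : G) := by rwa [Subgroup.orderOf_coe]
          show (χ : G → ℂ) (t : G) - (χ' : G → ℂ) (t : G) = 0
          rw [hreg _ this, sub_self])
        _ hbb 1 1 (Cfsg.Agent.Lib.Helper78.isPPart_one_of_regular (by simp)) (IsConj.refl _)
      rw [hbp] at hvan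
      have h1reg : ¬ 2 ∣ orderOf (1 : Subgroup.centralizer ({u} : Set G)) := by simp
      have hsum0 : (∑ ψ ∈ Finset.univ.filter (fun ψ => ψ ∈
          Cfsg.blockOf M (ψ₀ : Subgroup.centralizer ({u} : Set G) → ℂ)),
          ((m ψ : ℤ) - (m' ψ : ℤ))) = 0 := by
        have h2 : ((∑ ψ ∈ Finset.univ.filter (fun ψ => ψ ∈
            Cfsg.blockOf M (ψ₀ : Subgroup.centralizer ({u} : Set G) → ℂ)),
            ((m ψ : ℤ) - (m' ψ : ℤ)) : ℤ) : ℂ) *
            (ψ₀ : Subgroup.centralizer ({u} : Set G) → ℂ) 1 = 0 := by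
          rw [← hvan]
          push_cast
          rw [Finset.sum_mul]
          refine Finset.sum_congr rfl fun ψ hψ => ?_
          rw [Finset.mem_filter] at hψ
          rw [hdi ψ, hagree ψ hψ.2 ψ₀ hψ₀ 1 h1reg]
        rcases mul_eq_zero.mp h2 with h | h
        · exact_mod_cast h
        · exact absurd h (Cfsg.Agent.Lib.Helper81.irr_one_ne_zero ψ₀)
      -- parity
      obtain ⟨k, hk⟩ : ∃ k : ℤ, (∑ ψ ∈ Finset.univ.filter (fun ψ => ψ ∈
          Cfsg.blockOf M (ψ₀ : Subgroup.centralizer ({u} : Set G) → ℂ)),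
          ω ψ * ((m ψ : ℤ) - (m' ψ : ℤ))) = 2 * k := by
        have h3 : (∑ ψ ∈ Finset.univ.filter (fun ψ => ψ ∈
            Cfsg.blockOf M (ψ₀ : Subgroup.centralizer ({u} : Set G) → ℂ)),
            ω ψ * ((m ψ : ℤ) - (m' ψ : ℤ))) =
            ∑ ψ ∈ Finset.univ.filter (fun ψ => ψ ∈
            Cfsg.blockOf M (ψ₀ : Subgroup.centralizer ({u} : Set G) → ℂ)),
            (ω ψ - 1) * ((m ψ : ℤ) - (m' ψ : ℤ)) := by
          have : ∀ ψ : Cfsg.IrrCharacter (Subgroup.centralizer ({u} : Set G)),
              ω ψ * ((m ψ : ℤ) - (m' ψ : ℤ)) =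
              (ω ψ - 1) * ((m ψ : ℤ) - (m' ψ : ℤ)) + ((m ψ : ℤ) - (m' ψ : ℤ)) := fun ψ => by ring
          simp_rw [this]
          rw [Finset.sum_add_distrib, hsum0, add_zero]
        rw [h3]
        apply Finset.dvd_sum
        intro ψ _
        rcases hω ψ with h | h <;> rw [h]
        · simp
        · exact ⟨-((m ψ : ℤ) - (m' ψ : ℤ)), by ring⟩
      have hD : Cfsg.blockPart (Cfsg.blockOf M (ψ₀ : Subgroup.centralizer ({u} : Set G) → ℂ))
            (fun c : Subgroup.centralizer ({u} : Set G) => (χ : G → ℂ) (u * (c : G))) yC -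
          Cfsg.blockPart (Cfsg.blockOf M (ψ₀ : Subgroup.centralizer ({u} : Set G) → ℂ))
            (fun c : Subgroup.centralizer ({u} : Set G) => (χ' : G → ℂ) (u * (c : G))) yC =
          2 * (k : ℂ) * (ψ₀ : Subgroup.centralizer ({u} : Set G) → ℂ) yC := by
        rw [hbp, hbp, ← Finset.sum_sub_distrib]
        have h4 : (2 * (k : ℂ)) = ((2 * k : ℤ) : ℂ) := by push_cast; ring
        rw [h4, ← hk]
        push_cast
        rw [Finset.sum_mul]
        refine Finset.sum_congr rfl fun ψ hψ => ?_
        rw [Finset.mem_filter] at hψ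
        rw [hωχ ψ χ, hωχ ψ χ', hmi ψ, hmi' ψ, hagree ψ hψ.2 ψ₀ hψ₀ yC hyC']
        ring
      rw [hD]
      have hint : MemLocalRing M ((ψ₀ : Subgroup.centralizer ({u} : Set G) → ℂ) yC) :=
        memLocalRing_of_isIntegral hMp (irr_isIntegral ψ₀.2 yC)
      constructor
      · have : 2 * (k : ℂ) * (ψ₀ : Subgroup.centralizer ({u} : Set G) → ℂ) yC / 2 =
            (k : ℂ) * (ψ₀ : Subgroup.centralizer ({u} : Set G) → ℂ) yC := by ring
        rw [this]
        exact memLocalRing_mul hMp (memLocalRing_intCast hMp k) hint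
      · -- divisibility by the centralizer order
        rw [← hcardC]
        obtain ⟨k₂, m₂, hm₂, hcard2⟩ := Nat.exists_eq_pow_mul_and_not_dvd
          (Nat.card_pos (α := Subgroup.centralizer
            ({yC} : Set (Subgroup.centralizer ({u} : Set G))))).ne' 2 (by norm_num)
        have hpd := Cfsg.Agent.Lib.Helper76.memLocalRing_pow_div_mul_irr hM ψ₀ yC k₂
          (by rw [hcard2]; exact Dvd.intro _ rfl)
        have hle : (Nat.card (Subgroup.centralizer ({u} : Set G))).factorization 2 -
            (Cfsg.charDegree (ψ₀ : Subgroup.centralizer ({u} : Set G) → ℂ)).factorization 2 ≤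
            2 := by
          refine le_trans ?_ hdef
          unfold Cfsg.blockDefect
          apply Nat.sub_le_sub_left
          exact Nat.sInf_le (Set.mem_image_of_mem _ hψ₀)
        obtain ⟨e, he⟩ : ∃ e : ℕ, e = (Nat.card (Subgroup.centralizer ({u} : Set G))).factorization 2 -
            (Cfsg.charDegree (ψ₀ : Subgroup.centralizer ({u} : Set G) → ℂ)).factorization 2 :=
          ⟨_, rfl⟩
        rw [← he] at hpd hle
        have hm₂0 : (m₂ : ℂ) ≠ 0 := by
          intro h
          have : m₂ = 0 := by exact_mod_cast h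
          rw [this] at hm₂
          exact hm₂ (dvd_zero 2)
        have h5 : 2 * (2 * (k : ℂ) * (ψ₀ : Subgroup.centralizer ({u} : Set G) → ℂ) yC) /
            (Nat.card (Subgroup.centralizer
              ({yC} : Set (Subgroup.centralizer ({u} : Set G)))) : ℂ) =
            (k : ℂ) * (((2 ^ (2 - e) : ℕ) : ℂ) * ((m₂ : ℂ)⁻¹ *
              (((2 ^ e : ℕ) : ℂ) / (2 : ℂ) ^ k₂ *
                (ψ₀ : Subgroup.centralizer ({u} : Set G) → ℂ) yC))) := by
          rw [hcard2]
          have h6 : ((2 ^ (2 - e) : ℕ) : ℂ) * ((2 ^ e : ℕ) : ℂ) = 4 := by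
            rw [← Nat.cast_mul, ← pow_add, Nat.sub_add_cancel hle]
            norm_num
          have h7 : ((2 : ℂ) ^ k₂) ≠ 0 := pow_ne_zero _ (by norm_num)
          push_cast at h6 ⊢
          field_simp
          linear_combination (-(k : ℂ) * (ψ₀ : Subgroup.centralizer ({u} : Set G) → ℂ) yC) * h6
        rw [h5]
        have hpd' : MemLocalRing M (((2 ^ e : ℕ) : ℂ) / (2 : ℂ) ^ k₂ *
            (ψ₀ : Subgroup.centralizer ({u} : Set G) → ℂ) yC) := by
          exact_mod_cast hpd
        exact memLocalRing_mul hMp (memLocalRing_intCast hMp k)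
          (memLocalRing_mul hMp (memLocalRing_natCast hMp _)
            (memLocalRing_mul hMp (memLocalRing_inv_natCast hM hm₂) hpd'))
    · rw [Cfsg.Agent.S0923.result 2 M hM u hux B hB χ hχ _ hbb hind yC hyC',
        Cfsg.Agent.S0923.result 2 M hM u hux B hB χ' hχ' _ hbb hind yC hyC']
      simp only [sub_self, zero_div, mul_zero]
      exact ⟨memLocalRing_zero hMp, memLocalRing_zero hMp⟩
  constructor
  · have h1 : ((χ : G → ℂ) (u * y) - (χ' : G → ℂ) (u * y)) / 2 =
        ∑ b ∈ Finset.univ.image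
          (fun ψ : Cfsg.IrrCharacter (Subgroup.centralizer ({u} : Set G)) =>
            Cfsg.blockOf M (ψ : Subgroup.centralizer ({u} : Set G) → ℂ)),
          (Cfsg.blockPart b
            (fun c : Subgroup.centralizer ({u} : Set G) => (χ : G → ℂ) (u * (c : G))) yC -
          Cfsg.blockPart b
            (fun c : Subgroup.centralizer ({u} : Set G) => (χ' : G → ℂ) (u * (c : G))) yC) / 2 := by
      rw [← Finset.sum_div, Finset.sum_sub_distrib, ← e1, ← e2]
    rw [h1]
    exact memLocalRing_sum hMp _ _ (fun b hb => (key b hb).1)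
  · have h1 : 2 * ((χ : G → ℂ) (u * y) - (χ' : G → ℂ) (u * y)) /
        (Nat.card (Subgroup.centralizer ({u * y} : Set G)) : ℂ) =
        ∑ b ∈ Finset.univ.image
          (fun ψ : Cfsg.IrrCharacter (Subgroup.centralizer ({u} : Set G)) =>
            Cfsg.blockOf M (ψ : Subgroup.centralizer ({u} : Set G) → ℂ)),
          2 * (Cfsg.blockPart b
            (fun c : Subgroup.centralizer ({u} : Set G) => (χ : G → ℂ) (u * (c : G))) yC -
          Cfsg.blockPart b
            (fun c : Subgroup.centralizer ({u} : Set G) => (χ' : G → ℂ) (u * (c : G))) yC) /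
          (Nat.card (Subgroup.centralizer ({u * y} : Set G)) : ℂ) := by
      rw [← Finset.sum_div, ← Finset.mul_sum, Finset.sum_sub_distrib, ← e1, ← e2]
    rw [h1]
    exact memLocalRing_sum hMp _ _ (fun b hb => (key b hb).2)

end SectionCongr

end Cfsg.Agent.Lib.Helper79
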