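import Mathlib
import Cfsg.Agent.Lib.Helper77.IndPairs
import Cfsg.Agent.Lib.Helper77.IdemSet
import Cfsg.Agent.Lib.Helper78.ExtFirstMain
import Cfsg.Agent.Lib.Helper32.PrincType
import Cfsg.Agent.S4637

/-!
# The Brauer correspondent of a block with Klein four defect group has the same rank

Let `B` be a `2`-block of `G` with Klein four defect group `P` and `c` the block of `N_G(P)`
with defect group `P` inducing `B`.  Then `c` and `B` have the same inertial index, hence the
same number of irreducible Brauer characters.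
-/

set_option autoImplicit false
set_option linter.unusedSectionVars false
set_option linter.style.haveILetI false

namespace Cfsg.Agent.Lib.Helper79

open Cfsg Cfsg.Agent.Lib.Helper16 Cfsg.Agent.Lib.Helper77 Cfsg.Agent.Lib.Helper81

section KleinCorr

variable {G : Type*} [Group G] [Fintype G] {M : Ideal Cfsg.AlgInt} {p : ℕ} [Fact p.Prime]

/-- the maximal Brauer pair of a block `b` of `H ≥ C_G(D₀)` on its defect group `D₀`, transported
to `G`, is a Brauer pair of the induced block -/
theorem exists_brauerPair_transport (hM : Cfsg.IsPModular p M) (H : Subgroup G)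
    (b : Set (Cfsg.IrrCharacter H)) (hb : Cfsg.IsPBlock M b) (D₀ : Subgroup H)
    (hD₀ : Cfsg.IsDefectGroup p M b D₀) (R₂ : Subgroup G) (hR : D₀.map H.subtype = R₂)
    (hC : Subgroup.centralizer (R₂ : Set G) ≤ H)
    (B : Set (Cfsg.IrrCharacter G)) (hindB : Cfsg.IsInducedBlock M H b B) :
    ∃ (e₀' : Set (Cfsg.IrrCharacter (Subgroup.centralizer (D₀ : Set H))))
      (h₁ : CentEq H D₀ R₂),
      Cfsg.IsMaximalBrauerPair p M b D₀ e₀' ∧
      Cfsg.IsBrauerPairOf p M B R₂ (mapSet (subCentIso H D₀ R₂ h₁) e₀') := by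
  classical
  subst hR
  have hMp := isPrime_of_isPModular hM
  have hfinH : Fintype H := Fintype.ofFinite _
  obtain ⟨e₀', hmaxH⟩ := exists_isMaximalBrauerPair_of_isDefectGroup hM hb hD₀
  have hpairH := hmaxH.1
  have hD₀p : IsPGroup p D₀ := hpairH.1.1
  have h₁ : CentEq H D₀ (D₀.map H.subtype) := centEq_map H D₀ hC
  have hD₁p : IsPGroup p (D₀.map H.subtype) := hD₀p.map _
  have he₀ : Cfsg.IsPBlock M (mapSet (subCentIso H D₀ _ h₁) e₀') :=
    isPBlock_mapSet hMp _ hpairH.1.2
  obtain ⟨ξ', hξ'⟩ := IsPBlock.nonempty hMp hpairH.1.2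
  have hξ : mapIrr (subCentIso H D₀ _ h₁) ξ' ∈ mapSet (subCentIso H D₀ _ h₁) e₀' :=
    ⟨ξ', hξ', rfl⟩
  obtain ⟨A, hA, hA1, -⟩ := exists_block_of_brauerOmega hM (D₀.map H.subtype) hD₁p
    (mapIrr (subCentIso H D₀ _ h₁) ξ')
  have hAR : LocInt M (Cfsg.blockCoeff A) := fun g => memLocalRing_blockCoeff hMp A hA g
  have hAadm : BrAdm M (D₀.map H.subtype) (Cfsg.blockCoeff A) :=
    brAdm_of_isClassFunction hAR (blockCoeff_isClassFunction A)
  have hpairG : Cfsg.IsBrauerPairOf p M A (D₀.map H.subtype)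
      (mapSet (subCentIso H D₀ _ h₁) e₀') := by
    refine ⟨⟨hD₁p, he₀⟩, hA, fun ζ hζ => ?_⟩
    have h1 := memLocalIdeal_brauerOmega_sub_of_sameBlock hMp (D₀.map H.subtype)
      (IsPBlock.sameBlock hMp he₀ hζ hξ) hAadm
    have h2 := memLocalIdeal_add hMp h1 hA1
    rwa [sub_add_sub_cancel] at h2
  have hind : Cfsg.IsInducedBlock M H b A := by
    refine ⟨hb, hA, fun ψ hψ χ hχ g => ?_⟩
    have hz := isRClass_classInd hMp g
    have hzH := isRClass_resFun (M := M) H hz
    have h2 := memLocalIdeal_brauerOmega_sub_omegaF hM hpairH hξ' hψ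
      (z := resFun H (classInd g)) hzH.2 hzH.1
    have h3 := memLocalIdeal_brauerOmega_sub_omegaF hM hpairG hξ hχ (z := classInd g) hz.2 hz.1
    rw [brauerOmega_subCentIso H D₀ _ h₁ (classInd g) (resFun H (classInd g))
      (fun y _ => rfl) ξ'] at h3
    rw [omegaF_eq, omega_resFun_classInd] at h2
    rw [omegaF_eq, omega_classInd (irrCharacter_conj_eq χ)] at h3
    have h4 := memLocalIdeal_sub hMp h3 h2
    rwa [sub_sub_sub_cancel_left] at h4
  have hAB : A = B := Cfsg.Agent.Lib.Helper78.efm_unique hMp hind hindB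
  subst hAB
  exact ⟨e₀', h₁, hmaxH, hpairG⟩

/-- **Rank of the Brauer correspondent.** -/
theorem klein_corr_rank (hM : Cfsg.IsPModular 2 M) (B : Set (Cfsg.IrrCharacter G))
    (hB : Cfsg.IsPBlock M B) (P : Subgroup G) (hPD : Cfsg.IsDefectGroup 2 M B P)
    (hV : IsKleinFour P) (c : Set (Cfsg.IrrCharacter (Subgroup.normalizer (P : Set G))))
    (hcD : Cfsg.IsDefectGroup 2 M c (P.subgroupOf (Subgroup.normalizer (P : Set G))))
    (hc : Cfsg.IsInducedBlock M (Subgroup.normalizer (P : Set G)) c B) :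
    Cfsg.blockRank 2 c = Cfsg.blockRank 2 B := by
  classical
  haveI : Fact (Nat.Prime 2) := ⟨Nat.prime_two⟩
  letI : Fintype (Subgroup.normalizer (P : Set G)) := Fintype.ofFinite _
  have hMp := isPrime_of_isPModular hM
  have hPN : P ≤ Subgroup.normalizer (P : Set G) := Subgroup.le_normalizer
  have hCN : Subgroup.centralizer (P : Set G) ≤ Subgroup.normalizer (P : Set G) :=
    Subgroup.centralizer_le_normalizer _
  have hR : (P.subgroupOf (Subgroup.normalizer (P : Set G))).map
      (Subgroup.normalizer (P : Set G)).subtype = P := Subgroup.map_subgroupOf_eq_of_le hPN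
  obtain ⟨e', h₁, hmax', hpairG⟩ :=
    exists_brauerPair_transport hM _ c hc.1 _ hcD P hR hCN B hc
  have he := Cfsg.Agent.Lib.Helper32.isInducedBlock_of_isBrauerPairOf hM hpairG
  have he' := Cfsg.Agent.Lib.Helper32.isInducedBlock_of_isBrauerPairOf hM hmax'.1
  have hV' : IsKleinFour (P.subgroupOf (Subgroup.normalizer (P : Set G))) := by
    have e := Subgroup.subgroupOfEquivOfLe hPN
    exact ⟨by rw [Nat.card_congr e.toEquiv]; exact hV.card_four,
      by rw [Monoid.exponent_eq_of_mulEquiv e]; exact hV.exponent_two⟩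
  obtain ⟨T, hTdef⟩ : ∃ T : Subgroup G, T = Subgroup.normalizer (P : Set G) ⊓
      blockStab (Subgroup.centralizer (P : Set G))
        (mapSet (subCentIso _ _ P h₁) e') := ⟨_, rfl⟩
  obtain ⟨T', hT'def⟩ : ∃ T' : Subgroup (Subgroup.normalizer (P : Set G)),
      T' = Subgroup.normalizer
        ((P.subgroupOf (Subgroup.normalizer (P : Set G)) :
          Subgroup (Subgroup.normalizer (P : Set G))) : Set (Subgroup.normalizer (P : Set G))) ⊓
      blockStab (Subgroup.centralizer
        ((P.subgroupOf (Subgroup.normalizer (P : Set G)) :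
          Subgroup (Subgroup.normalizer (P : Set G))) : Set (Subgroup.normalizer (P : Set G))))
        e' := ⟨_, rfl⟩
  have hT : ∀ g : G, g ∈ T ↔ (g ∈ Subgroup.normalizer (P : Set G) ∧
      Cfsg.StabilizesBlock (Subgroup.centralizer (P : Set G))
        (mapSet (subCentIso _ _ P h₁) e') g) := by
    intro g
    rw [hTdef, Subgroup.mem_inf]
    rfl
  have hT' : ∀ g : Subgroup.normalizer (P : Set G), g ∈ T' ↔
      (g ∈ Subgroup.normalizer
        ((P.subgroupOf (Subgroup.normalizer (P : Set G)) :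
          Subgroup (Subgroup.normalizer (P : Set G))) : Set (Subgroup.normalizer (P : Set G))) ∧
      Cfsg.StabilizesBlock (Subgroup.centralizer
        ((P.subgroupOf (Subgroup.normalizer (P : Set G)) :
          Subgroup (Subgroup.normalizer (P : Set G))) : Set (Subgroup.normalizer (P : Set G))))
        e' g) := by
    intro g
    rw [hT'def, Subgroup.mem_inf]
    rfl
  obtain ⟨-, -, hrankB⟩ := Cfsg.Agent.S4637.result M hM B hB P hPD hV _ he T hT _ rfl
  obtain ⟨-, -, hrankc⟩ := Cfsg.Agent.S4637.result M hM c hc.1 _ hcD hV' e' he' T' hT' _ rfl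
  rw [hrankB, hrankc]
  have hmapC : (Subgroup.centralizer
      ((P.subgroupOf (Subgroup.normalizer (P : Set G)) :
        Subgroup (Subgroup.normalizer (P : Set G))) : Set (Subgroup.normalizer (P : Set G)))).map
      (Subgroup.normalizer (P : Set G)).subtype = Subgroup.centralizer (P : Set G) := by
    ext g
    constructor
    · rintro ⟨n, hn, rfl⟩
      exact (h₁ _).mpr ⟨n.2, hn⟩
    · intro hg
      obtain ⟨hgN, hg'⟩ := (h₁ g).mp hg
      exact ⟨⟨g, hgN⟩, hg', rfl⟩
  have hmapT : T'.map (Subgroup.normalizer (P : Set G)).subtype = T := by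
    ext g
    constructor
    · rintro ⟨n, hn, rfl⟩
      have hn' := (hT' n).mp hn
      rw [hT]
      exact ⟨n.2, stabilizesBlock_subCentIso _ _ P h₁ e' hn'.2⟩
    · intro hg
      rw [hT] at hg
      refine ⟨⟨g, hg.1⟩, ?_, rfl⟩
      show (⟨g, hg.1⟩ : Subgroup.normalizer (P : Set G)) ∈ T'
      rw [hT']
      refine ⟨?_, stabilizesBlock_subCentIso_symm _ _ P h₁ e' hg.2⟩
      rw [Subgroup.mem_normalizer_iff]
      intro k
      have h2 := (Subgroup.mem_normalizer_iff.mp hg.1) (k : G)
      exact h2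
  have hfinal : (Subgroup.centralizer (P : Set G)).relIndex T =
      ((Subgroup.centralizer
      ((P.subgroupOf (Subgroup.normalizer (P : Set G)) :
        Subgroup (Subgroup.normalizer (P : Set G))) : Set (Subgroup.normalizer (P : Set G)))).map
      (Subgroup.normalizer (P : Set G)).subtype).relIndex
        (T'.map (Subgroup.normalizer (P : Set G)).subtype) := by
    rw [hmapC, hmapT]
  rw [hfinal, Subgroup.relIndex_map_map_of_injective _ _ (Subgroup.subtype_injective _)]

end KleinCorr

end Cfsg.Agent.Lib.Helper79
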