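import Mathlib
import Cfsg.Agent.Lib.Helper79.KleinNil
import Cfsg.Agent.Lib.Helper79.KleinCongr
import Cfsg.Agent.Lib.Helper76.BlockCount
import Cfsg.Agent.S0917

/-!
# Klein four defect groups with trivial inertial quotient: congruences

For a `2`-block `B` with maximal Brauer pair `(P, c)`, `P` a Klein four group, and trivial
inertial quotient, any two characters `χ, χ' ∈ B` satisfy: `(χ x - χ' x) / 2` is a local
integer and `2 (χ x - χ' x) / |C_G(x)|` is a local integer, for every `x`.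
-/

set_option autoImplicit false
set_option linter.unusedSectionVars false
set_option linter.style.haveILetI false

namespace Cfsg.Agent.Lib.Helper79

open Cfsg Cfsg.Agent.Lib.Helper16 Cfsg.Agent.Lib.Helper77 Cfsg.Agent.Lib.Helper81

section KleinNilCongr

variable {G : Type*} [Group G] [Fintype G] {M : Ideal Cfsg.AlgInt}

/-- one block inducing `B` bounds the count from below by its rank -/
theorem blockRank_le_indCount {p : ℕ} (B : Set (Cfsg.IrrCharacter G)) (K : Subgroup G)
    (b₀ : Set (Cfsg.IrrCharacter ↥K)) (hb₀ : Cfsg.IsInducedBlock M K b₀ B) :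
    Cfsg.blockRank p b₀ ≤ indCount p M B K := by
  classical
  letI : Fintype K := Fintype.ofFinite K
  have := Cfsg.Agent.Lib.Helper81.irr_finite K
  have hfin : ({b : Set (Cfsg.IrrCharacter ↥K) | Cfsg.IsInducedBlock M K b B}).Finite :=
    Set.toFinite _
  unfold indCount
  rw [finsum_mem_eq_finite_toFinset_sum _ hfin]
  exact Finset.single_le_sum (f := fun b => Cfsg.blockRank p b) (fun _ _ => Nat.zero_le _)
    ((Set.Finite.mem_toFinset hfin).mpr hb₀)

/-- finitely many distinct blocks inducing `B`, and one more block inducing `B` -/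
theorem card_add_rank_le_indCount {p : ℕ} (hp : p.Prime) (hMp : M.IsPrime)
    (B : Set (Cfsg.IrrCharacter G)) (K : Subgroup G) {ι : Type*} (s : Finset ι)
    (F : ι → Set (Cfsg.IrrCharacter ↥K))
    (hF : ∀ i ∈ s, Cfsg.IsInducedBlock M K (F i) B)
    (hinj : ∀ i ∈ s, ∀ j ∈ s, F i = F j → i = j)
    (b₀ : Set (Cfsg.IrrCharacter ↥K)) (hb₀ : Cfsg.IsInducedBlock M K b₀ B) :
    s.card + Cfsg.blockRank p b₀ ≤ indCount p M B K + 1 := by
  classical
  letI : Fintype K := Fintype.ofFinite K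
  have := Cfsg.Agent.Lib.Helper81.irr_finite K
  have hfin : ({b : Set (Cfsg.IrrCharacter ↥K) | Cfsg.IsInducedBlock M K b B}).Finite :=
    Set.toFinite _
  unfold indCount
  rw [finsum_mem_eq_finite_toFinset_sum _ hfin]
  have hcard : s.card = (s.image F).card :=
    (Finset.card_image_of_injOn (fun i hi j hj h => hinj i hi j hj h)).symm
  have hsub : insert b₀ (s.image F) ⊆ hfin.toFinset := by
    intro b hb
    rw [Set.Finite.mem_toFinset]
    rcases Finset.mem_insert.mp hb with rfl | hb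
    · exact hb₀
    · obtain ⟨i, hi, rfl⟩ := Finset.mem_image.mp hb
      exact hF i hi
  have hpos : ∀ b ∈ s.image F, 1 ≤ Cfsg.blockRank p b := by
    intro b hb
    obtain ⟨i, hi, rfl⟩ := Finset.mem_image.mp hb
    exact Cfsg.Agent.Lib.Helper76.blockRank_pos hp hMp _ (hF i hi).1
  have h1 : ∑ b ∈ insert b₀ (s.image F), Cfsg.blockRank p b ≤
      ∑ b ∈ hfin.toFinset, Cfsg.blockRank p b := Finset.sum_le_sum_of_subset hsub
  by_cases hmem : b₀ ∈ s.image F
  · rw [Finset.insert_eq_of_mem hmem, ← Finset.add_sum_erase _ _ hmem] at h1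
    have h2 : (s.image F).card - 1 ≤ ∑ b ∈ (s.image F).erase b₀, Cfsg.blockRank p b := by
      rw [← Finset.card_erase_of_mem hmem]
      calc ((s.image F).erase b₀).card = ∑ b ∈ (s.image F).erase b₀, 1 := by simp
        _ ≤ _ := Finset.sum_le_sum (fun b hb => hpos b (Finset.mem_of_mem_erase hb))
    have h3 : 1 ≤ (s.image F).card := Finset.card_pos.mpr ⟨b₀, hmem⟩
    omega
  · rw [Finset.sum_insert hmem] at h1
    have h2 : (s.image F).card ≤ ∑ b ∈ s.image F, Cfsg.blockRank p b := by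
      calc (s.image F).card = ∑ b ∈ s.image F, 1 := by simp
        _ ≤ _ := Finset.sum_le_sum hpos
    omega

/-- transport of the two bounds along an equality of subgroups -/
theorem indCount_bounds_of_eq {p : ℕ} (B : Set (Cfsg.IrrCharacter G)) {K K' : Subgroup G}
    (h : K = K') (n : ℕ)
    (H : n ≤ indCount p M B K' ∧ ∀ b₀ : Set (Cfsg.IrrCharacter ↥K'),
      Cfsg.IsInducedBlock M K' b₀ B → n + Cfsg.blockRank p b₀ ≤ indCount p M B K' + 1) :
    n ≤ indCount p M B K ∧ ∀ b₀ : Set (Cfsg.IrrCharacter ↥K),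
      Cfsg.IsInducedBlock M K b₀ B → n + Cfsg.blockRank p b₀ ≤ indCount p M B K + 1 := by
  subst h
  exact H

/-- **Klein four, inertial index one: local blocks.**  For a `2`-element `x` of a set of
representatives, every block of `C_G(x)` inducing `B` has one irreducible Brauer character, and
such a block exists only if `x * x = 1`. -/
theorem klein_nil_local (hM : Cfsg.IsPModular 2 M) (B : Set (Cfsg.IrrCharacter G))
    (P : Subgroup G) (c : Set (Cfsg.IrrCharacter (Subgroup.centralizer (P : Set G))))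
    (hmax : Cfsg.IsMaximalBrauerPair 2 M B P c) (hcard : Nat.card P = 4)
    (hab : ∀ x ∈ P, ∀ y ∈ P, x * y = y * x) (hexp : ∀ x ∈ P, x * x = 1)
    (hstab : ∀ x : G, x ∈ Subgroup.normalizer (P : Set G) →
      Cfsg.StabilizesBlock (Subgroup.centralizer (P : Set G)) c x →
      x ∈ Subgroup.centralizer (P : Set G))
    (X : Finset G) (h1X : (1 : G) ∈ X) (hX : ∀ x ∈ X, ∃ k : ℕ, orderOf x = 2 ^ k)
    (hXrep : ∀ g : G, (∃ k : ℕ, orderOf g = 2 ^ k) → ∃! x, x ∈ X ∧ IsConj g x) :
    ∀ x ∈ X, ∀ b : Set (Cfsg.IrrCharacter (Subgroup.centralizer ({x} : Set G))),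
      Cfsg.IsInducedBlock M (Subgroup.centralizer ({x} : Set G)) b B →
        x * x = 1 ∧ Cfsg.blockRank 2 b = 1 := by
  classical
  haveI : Fact (Nat.Prime 2) := ⟨Nat.prime_two⟩
  have hMp := isPrime_of_isPModular hM
  have hB : Cfsg.IsPBlock M B := hmax.1.2.1
  have hPe : Cfsg.IsBrauerPair 2 M P c := hmax.1.1
  have hPD := Cfsg.Agent.S4659.result 2 M hM B P c hmax
  have hk : Nat.card B = 4 := card_block_of_defect_two hM B hB P hPD hcard
  have hnil : Cfsg.IsNilpotentBlock 2 M B :=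
    (Cfsg.Agent.S4687.result 2 M hM B P c hmax hab).mpr hstab
  have hrank1 := klein_rank_one hM B P c hmax hcard hab hstab
  have hcount := Cfsg.Agent.S4511.result 2 M hM B hB X hX hXrep
  have hN1 := Cfsg.Agent.Lib.Helper76.induced_count_at_one hM B hB
  have hN1' : indCount 2 M B (Subgroup.centralizer ({1} : Set G)) = 1 := by
    unfold indCount
    rw [hN1, hrank1]
  rw [← Finset.add_sum_erase X _ h1X, hN1, hk, hrank1] at hcount
  -- the three involutions
  obtain ⟨U, hU⟩ : ∃ U : Finset G, U = (Finset.univ.filter (fun u : G => u ∈ P)).erase 1 :=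
    ⟨_, rfl⟩
  have hUcard : U.card = 3 := by
    have h1 : (Finset.univ.filter (fun u : G => u ∈ P)).card = 4 := by
      rw [← hcard, Nat.card_eq_fintype_card, Fintype.card_subtype]
    rw [hU, Finset.card_erase_of_mem (by simp [P.one_mem]), h1]
  have hUP : ∀ u ∈ U, u ∈ P ∧ u ≠ 1 := by
    intro u hu
    rw [hU, Finset.mem_erase, Finset.mem_filter] at hu
    exact ⟨hu.2.2, hu.1⟩
  have hord : ∀ u ∈ P, ∃ k : ℕ, orderOf u = 2 ^ k := by
    intro u hu
    obtain ⟨k, hk⟩ := (IsPGroup.iff_orderOf.mp hPe.1) ⟨u, hu⟩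
    exact ⟨k, by rw [← hk, Subgroup.orderOf_mk]⟩
  have hrep : ∀ u : G, ∃ (r a : G), u ∈ P → (r ∈ X ∧ a * u * a⁻¹ = r) := by
    intro u
    by_cases hu : u ∈ P
    · obtain ⟨y, ⟨hyX, hy⟩, -⟩ := hXrep u (hord u hu)
      obtain ⟨a, ha⟩ := isConj_iff.mp hy
      exact ⟨y, a, fun _ => ⟨hyX, ha⟩⟩
    · exact ⟨1, 1, fun h => absurd h hu⟩
  choose r a hra using hrep
  have hfex : ∀ u : G, ∃ f : Set (Cfsg.IrrCharacter
      (Subgroup.centralizer (Subgroup.zpowers u : Set G))),
      u ∈ P → (Cfsg.IsPBlock M f ∧ Cfsg.SubpairLE 2 M (Subgroup.zpowers u) f P c) := by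
    intro u
    by_cases hu : u ∈ P
    · obtain ⟨f, hf, -⟩ := Cfsg.Agent.S4655.result 2 M hM P (Subgroup.zpowers u) c hPe
        (by rwa [Subgroup.zpowers_le])
      exact ⟨f, fun _ => hf⟩
    · exact ⟨∅, fun h => absurd h hu⟩
  choose f hf using hfex
  have hmaps : ∀ u ∈ U, r u ∈ X.erase 1 := by
    intro u hu
    obtain ⟨huP, hu1⟩ := hUP u hu
    obtain ⟨hrX, har⟩ := hra u huP
    rw [Finset.mem_erase]
    refine ⟨?_, hrX⟩
    intro h1
    rw [h1] at har
    apply hu1
    have h2 : u = (a u)⁻¹ * (a u * u * (a u)⁻¹) * a u := by group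
    rw [h2, har]
    group
  have keyx : ∀ x ∈ X.erase 1,
      (U.filter (fun u => r u = x)).card ≤ indCount 2 M B (Subgroup.centralizer ({x} : Set G)) ∧
      ∀ b₀ : Set (Cfsg.IrrCharacter ↥(Subgroup.centralizer ({x} : Set G))),
        Cfsg.IsInducedBlock M (Subgroup.centralizer ({x} : Set G)) b₀ B →
        (U.filter (fun u => r u = x)).card + Cfsg.blockRank 2 b₀ ≤
          indCount 2 M B (Subgroup.centralizer ({x} : Set G)) + 1 := by
    intro x hx
    apply indCount_bounds_of_eq B (centralizer_singleton_eq_zpowers x)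
    have hzpow : ∀ u ∈ U, r u = x →
        Subgroup.zpowers x = (Subgroup.zpowers u).map (MulAut.conj (a u)).toMonoidHom := by
      intro u hu hrx
      obtain ⟨huP, hu1⟩ := hUP u hu
      obtain ⟨hrX, har⟩ := hra u huP
      rw [MonoidHom.map_zpowers]
      congr 1
      rw [← hrx, ← har]
      rfl
    have hFi : ∀ u ∈ U.filter (fun u => r u = x),
        Cfsg.IsInducedBlock M (Subgroup.centralizer (Subgroup.zpowers x : Set G))
          (conjBlockTo (a u) (Subgroup.zpowers u) (Subgroup.zpowers x) (f u)) B := by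
      intro u hu
      rw [Finset.mem_filter] at hu
      obtain ⟨huP, hu1⟩ := hUP u hu.1
      have hzp := hzpow u hu.1 hu.2
      have h1 : Cfsg.IsBrauerPairOf 2 M B (Subgroup.zpowers u) (f u) :=
        isBrauerPairOf_of_subpairLE_down hM (a := ⟨Subgroup.zpowers u, f u⟩) (b := ⟨P, c⟩)
          (hf u huP).2 hmax.1
      have h2 := isBrauerPairOf_conjBlockTo hMp (a u) hzp h1
      exact Cfsg.Agent.Lib.Helper32.isInducedBlock_of_isBrauerPairOf hM h2
    have hFinj : ∀ u ∈ U.filter (fun u => r u = x), ∀ u' ∈ U.filter (fun u => r u = x),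
        conjBlockTo (a u) (Subgroup.zpowers u) (Subgroup.zpowers x) (f u) =
          conjBlockTo (a u') (Subgroup.zpowers u') (Subgroup.zpowers x) (f u') → u = u' := by
      intro u hu u' hu' heq
      rw [Finset.mem_filter] at hu hu'
      obtain ⟨huP, hu1⟩ := hUP u hu.1
      obtain ⟨hrX, har⟩ := hra u huP
      obtain ⟨huP', hu1'⟩ := hUP u' hu'.1
      obtain ⟨hrX', har'⟩ := hra u' huP'
      have hzp := hzpow u hu.1 hu.2
      have hzp' := hzpow u' hu'.1 hu'.2
      have hzp'' : Subgroup.zpowers u' =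
          (Subgroup.zpowers x).map (MulAut.conj (a u')⁻¹).toMonoidHom := by
        rw [MonoidHom.map_zpowers]
        congr 1
        show u' = (a u')⁻¹ * x * (a u')⁻¹⁻¹
        rw [← hu'.2, ← har']
        group
      obtain ⟨g, hg⟩ : ∃ g : G, g = (a u')⁻¹ * a u := ⟨_, rfl⟩
      have hgu : g * u * g⁻¹ = u' := by
        have h3 : (a u) * u * (a u)⁻¹ = (a u') * u' * (a u')⁻¹ := by
          rw [har, har', hu.2, hu'.2]
        rw [hg]
        calc (a u')⁻¹ * a u * u * ((a u')⁻¹ * a u)⁻¹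
            = (a u')⁻¹ * (a u * u * (a u)⁻¹) * a u' := by group
          _ = (a u')⁻¹ * (a u' * u' * (a u')⁻¹) * a u' := by rw [h3]
          _ = u' := by group
      have hzg : Subgroup.zpowers u' =
          (Subgroup.zpowers u).map (MulAut.conj g).toMonoidHom := by
        rw [MonoidHom.map_zpowers]
        congr 1
        exact hgu.symm
      have hblock : conjBlockTo g (Subgroup.zpowers u) (Subgroup.zpowers u') (f u) = f u' := by
        rw [hg, ← conjBlockTo_conjBlockTo (a u) (a u')⁻¹ (Subgroup.zpowers u)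
          (Subgroup.zpowers x) (Subgroup.zpowers u') hzp hzp'' (f u), heq,
          conjBlockTo_conjBlockTo (a u') (a u')⁻¹ (Subgroup.zpowers u')
          (Subgroup.zpowers x) (Subgroup.zpowers u') hzp' hzp'' (f u'), inv_mul_cancel,
          conjBlockTo_eq_conjSet _ 1 (Subgroup.one_mem _), conjSet_one]
      have hle : Cfsg.SubpairLE 2 M ((Subgroup.zpowers u).map (MulAut.conj g).toMonoidHom)
          (Cfsg.conjBlock (Subgroup.zpowers u) g (f u)) P c := by
        unfold Cfsg.SubpairLE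
        rw [sigma_conjBlock_eq g (Subgroup.zpowers u) (Subgroup.zpowers u') hzg (f u), hblock]
        exact (hf u' huP').2
      obtain ⟨w, hw, hwq⟩ := exists_conj_eq_of_isNilpotentBlock hM hmax hnil _
        (Subgroup.zpowers u) (f u) g rfl (hf u huP).2 hle
      have h3 := hwq u (Subgroup.mem_zpowers u)
      rw [hgu] at h3
      rw [h3, hab w hw u huP]
      group
    exact ⟨card_le_indCount Nat.prime_two hMp B _ _
      (fun u => conjBlockTo (a u) (Subgroup.zpowers u) (Subgroup.zpowers x) (f u)) hFi hFinj,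
      fun b₀ hb₀ => card_add_rank_le_indCount Nat.prime_two hMp B _ _
      (fun u => conjBlockTo (a u) (Subgroup.zpowers u) (Subgroup.zpowers x) (f u)) hFi hFinj
      b₀ hb₀⟩
  -- equality in each fibre
  have hsum3 : ∑ x ∈ X.erase 1, indCount 2 M B (Subgroup.centralizer ({x} : Set G)) = 3 := by
    have hcount' : 4 = 1 + ∑ x ∈ X.erase 1,
        indCount 2 M B (Subgroup.centralizer ({x} : Set G)) := hcount
    omega
  have hfib : ∀ x ∈ X.erase 1, (U.filter (fun u => r u = x)).card =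
      indCount 2 M B (Subgroup.centralizer ({x} : Set G)) := by
    have h1 : ∑ x ∈ X.erase 1, (U.filter (fun u => r u = x)).card =
        ∑ x ∈ X.erase 1, indCount 2 M B (Subgroup.centralizer ({x} : Set G)) := by
      rw [hsum3, ← Finset.card_eq_sum_card_fiberwise hmaps, hUcard]
    exact (Finset.sum_eq_sum_iff_of_le (fun x hx => (keyx x hx).1)).mp h1
  intro x hx b hb
  by_cases hx1 : x = 1
  · subst hx1
    refine ⟨mul_one 1, ?_⟩
    have h1 := blockRank_le_indCount (p := 2) B _ b hb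
    rw [hN1'] at h1
    have h2 := Cfsg.Agent.Lib.Helper76.blockRank_pos Nat.prime_two hMp b hb.1
    omega
  · have hxe : x ∈ X.erase 1 := Finset.mem_erase.mpr ⟨hx1, hx⟩
    have h1 := (keyx x hxe).2 b hb
    have h2 := Cfsg.Agent.Lib.Helper76.blockRank_pos Nat.prime_two hMp b hb.1
    have h3 := hfib x hxe
    have h4 := blockRank_le_indCount (p := 2) B _ b hb
    refine ⟨?_, by omega⟩
    have h5 : 0 < (U.filter (fun u => r u = x)).card := by omega
    obtain ⟨u, hu⟩ := Finset.card_pos.mp h5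
    rw [Finset.mem_filter] at hu
    obtain ⟨huP, hu1⟩ := hUP u hu.1
    obtain ⟨hrX, har⟩ := hra u huP
    rw [← hu.2, ← har]
    calc a u * u * (a u)⁻¹ * (a u * u * (a u)⁻¹) = a u * (u * u) * (a u)⁻¹ := by group
      _ = 1 := by rw [hexp u huP]; group

/-- variant of `section_congr`: `u` is a `2`-element, and `u * u = 1` is only required when some
block of `C_G(u)` induces `B` -/
theorem section_congr' (hM : Cfsg.IsPModular 2 M) (B : Set (Cfsg.IrrCharacter G))
    (hB : Cfsg.IsPBlock M B) (u : G) (hux : ∃ k : ℕ, orderOf u = 2 ^ k)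
    (hloc : ∀ b : Set (Cfsg.IrrCharacter (Subgroup.centralizer ({u} : Set G))),
      Cfsg.IsInducedBlock M (Subgroup.centralizer ({u} : Set G)) b B →
        u * u = 1 ∧ Cfsg.blockDefect 2 b ≤ 2 ∧ ∀ ψ ∈ b, ∀ ψ' ∈ b,
          ∀ s : Subgroup.centralizer ({u} : Set G), ¬ 2 ∣ orderOf s →
            (ψ : Subgroup.centralizer ({u} : Set G) → ℂ) s =
              (ψ' : Subgroup.centralizer ({u} : Set G) → ℂ) s)
    (χ χ' : Cfsg.IrrCharacter G) (hχ : χ ∈ B) (hχ' : χ' ∈ B)
    (hreg : ∀ s : G, ¬ 2 ∣ orderOf s → (χ : G → ℂ) s = (χ' : G → ℂ) s)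
    (y : G) (hy : ¬ 2 ∣ orderOf y) (hc : u * y = y * u) :
    MemLocalRing M (((χ : G → ℂ) (u * y) - (χ' : G → ℂ) (u * y)) / 2) ∧
    MemLocalRing M (2 * ((χ : G → ℂ) (u * y) - (χ' : G → ℂ) (u * y)) /
      (Nat.card (Subgroup.centralizer ({u * y} : Set G)) : ℂ)) := by
  classical
  haveI : Fact (Nat.Prime 2) := ⟨Nat.prime_two⟩
  have hMp := isPrime_of_isPModular hM
  by_cases hex : ∃ b : Set (Cfsg.IrrCharacter (Subgroup.centralizer ({u} : Set G))),
      Cfsg.IsInducedBlock M (Subgroup.centralizer ({u} : Set G)) b B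
  · obtain ⟨b, hb⟩ := hex
    exact section_congr hM B hB u (hloc b hb).1 (fun b hb => (hloc b hb).2) χ χ' hχ hχ' hreg y
      hy hc
  · have hzero : ∀ χ ∈ B, (χ : G → ℂ) (u * y) = 0 := by
      intro χ hχ
      letI : Fintype (Subgroup.centralizer ({u} : Set G)) := Fintype.ofFinite _
      have := Cfsg.Agent.Lib.Helper81.irr_finite (Subgroup.centralizer ({u} : Set G))
      letI : Fintype (Cfsg.IrrCharacter (Subgroup.centralizer ({u} : Set G))) :=
        Fintype.ofFinite _
      have hyC : y ∈ Subgroup.centralizer ({u} : Set G) := by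
        rw [Subgroup.mem_centralizer_iff]
        intro h hh
        rw [Set.mem_singleton_iff] at hh
        rw [hh]
        exact hc
      obtain ⟨yC, hyCdef⟩ : ∃ yC : Subgroup.centralizer ({u} : Set G), yC = ⟨y, hyC⟩ := ⟨_, rfl⟩
      have hyCval : (yC : G) = y := by rw [hyCdef]
      have hyC' : ¬ 2 ∣ orderOf yC := by
        rw [← Subgroup.orderOf_coe, hyCval]
        exact hy
      have e1 := Cfsg.Agent.Lib.Helper76.classFun_eq_sum_blockPart hMp _
        (Cfsg.Agent.Lib.Helper76.isClassFunction_section χ u) yC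
      beta_reduce at e1
      rw [hyCval] at e1
      rw [e1]
      apply Finset.sum_eq_zero
      intro b hb
      obtain ⟨ψ₀, -, rfl⟩ := Finset.mem_image.mp hb
      exact Cfsg.Agent.S0923.result 2 M hM u hux B hB χ hχ _ ⟨ψ₀, rfl⟩
        (fun h => hex ⟨_, h⟩) yC hyC'
    rw [hzero χ hχ, hzero χ' hχ']
    simp only [sub_self, zero_div, mul_zero]
    exact ⟨memLocalRing_zero hMp, memLocalRing_zero hMp⟩

/-- **Klein four, inertial index one: congruences.** -/
theorem klein_nil_congr (hM : Cfsg.IsPModular 2 M) (B : Set (Cfsg.IrrCharacter G))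
    (P : Subgroup G) (c : Set (Cfsg.IrrCharacter (Subgroup.centralizer (P : Set G))))
    (hmax : Cfsg.IsMaximalBrauerPair 2 M B P c) (hcard : Nat.card P = 4)
    (hab : ∀ x ∈ P, ∀ y ∈ P, x * y = y * x) (hexp : ∀ x ∈ P, x * x = 1)
    (hstab : ∀ x : G, x ∈ Subgroup.normalizer (P : Set G) →
      Cfsg.StabilizesBlock (Subgroup.centralizer (P : Set G)) c x →
      x ∈ Subgroup.centralizer (P : Set G)) :
    ∀ χ ∈ B, ∀ χ' ∈ B, ∀ x : G,
      MemLocalRing M (((χ : G → ℂ) x - (χ' : G → ℂ) x) / 2) ∧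
      MemLocalRing M (2 * ((χ : G → ℂ) x - (χ' : G → ℂ) x) /
        (Nat.card (Subgroup.centralizer ({x} : Set G)) : ℂ)) := by
  classical
  haveI : Fact (Nat.Prime 2) := ⟨Nat.prime_two⟩
  have hMp := isPrime_of_isPModular hM
  have hB : Cfsg.IsPBlock M B := hmax.1.2.1
  have hPD := Cfsg.Agent.S4659.result 2 M hM B P c hmax
  have hk : Nat.card B = 4 := card_block_of_defect_two hM B hB P hPD hcard
  have hrank1 := klein_rank_one hM B P c hmax hcard hab hstab
  have hdefB : Cfsg.blockDefect 2 B = 2 := by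
    have h := card_isDefectGroup hM B hB P hPD
    rw [hcard] at h
    have h2 : (2 : ℕ) ^ 2 = 2 ^ Cfsg.blockDefect 2 B := by rw [← h]; norm_num
    exact (Nat.pow_right_injective (le_refl 2) h2).symm
  have hreg := equal_regular_of_rank_one hM B hB hrank1 (Or.inr ⟨hdefB, hk⟩)
  obtain ⟨X, h1X, hX, hXrep⟩ :=
    Cfsg.Agent.Lib.Helper76.exists_section_reps 2 (1 : G) ⟨0, by simp⟩
  have hlocal := klein_nil_local hM B P c hmax hcard hab hexp hstab X h1X hX hXrep
  have hloc : ∀ r ∈ X, ∀ b : Set (Cfsg.IrrCharacter (Subgroup.centralizer ({r} : Set G))),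
      Cfsg.IsInducedBlock M (Subgroup.centralizer ({r} : Set G)) b B →
        r * r = 1 ∧ Cfsg.blockDefect 2 b ≤ 2 ∧ ∀ ψ ∈ b, ∀ ψ' ∈ b,
          ∀ s : Subgroup.centralizer ({r} : Set G), ¬ 2 ∣ orderOf s →
            (ψ : Subgroup.centralizer ({r} : Set G) → ℂ) s =
              (ψ' : Subgroup.centralizer ({r} : Set G) → ℂ) s := by
    intro r hr b hb
    obtain ⟨hrr, hrk⟩ := hlocal r hr b hb
    letI : Fintype (Subgroup.centralizer ({r} : Set G)) := Fintype.ofFinite _
    obtain ⟨Db, hDb⟩ := exists_isDefectGroup 2 hMp b hb.1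
    obtain ⟨E, hE, hle⟩ := Cfsg.Agent.S0917.result 2 M hM _ b hb.1 B hB hb Db hDb
    have hcE := card_isDefectGroup hM B hB E hE
    have hcD := card_isDefectGroup hM b hb.1 Db hDb
    have hcmap : Nat.card (Db.map (Subgroup.centralizer ({r} : Set G)).subtype) = Nat.card Db :=
      Subgroup.card_map_of_injective (Subgroup.subtype_injective _)
    have hle' : Nat.card (Db.map (Subgroup.centralizer ({r} : Set G)).subtype) ≤ Nat.card E :=
      Subgroup.card_le_of_le hle
    have hd2 : Cfsg.blockDefect 2 b ≤ 2 := by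
      rw [hcmap, hcD, hcE, hdefB] at hle'
      exact (Nat.pow_le_pow_iff_right (by norm_num)).mp hle'
    refine ⟨hrr, hd2, ?_⟩
    apply equal_regular_of_rank_one hM b hb.1 hrk
    by_cases h2 : Cfsg.blockDefect 2 b ≤ 1
    · exact Or.inl h2
    · have h3 : Cfsg.blockDefect 2 b = 2 := by omega
      exact Or.inr ⟨h3, card_block_of_defect_two hM b hb.1 Db hDb (by rw [hcD, h3]; norm_num)⟩
  intro χ hχ χ' hχ' x
  obtain ⟨u, hu⟩ := Cfsg.Agent.Lib.Helper78.exists_isPPart Nat.prime_two x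
  obtain ⟨y, hxy, hcomm, hux, hy⟩ := hu
  obtain ⟨r, ⟨hrX, hconj⟩, -⟩ := hXrep u hux
  obtain ⟨g, hg⟩ := isConj_iff.mp hconj
  have hy' : ¬ 2 ∣ orderOf (g * y * g⁻¹) := by
    have : orderOf (g * y * g⁻¹) = orderOf y :=
      orderOf_injective (MulAut.conj g).toMonoidHom (MulAut.conj g).injective y
    rw [this]
    exact hy
  have hc' : r * (g * y * g⁻¹) = (g * y * g⁻¹) * r := by
    rw [← hg]
    calc g * u * g⁻¹ * (g * y * g⁻¹) = g * (u * y) * g⁻¹ := by group
      _ = g * (y * u) * g⁻¹ := by rw [hcomm.eq]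
      _ = g * y * g⁻¹ * (g * u * g⁻¹) := by group
  have hmain := section_congr' hM B hB r (hX r hrX) (hloc r hrX) χ χ' hχ hχ'
    (hreg χ hχ χ' hχ') (g * y * g⁻¹) hy' hc'
  have hxr : r * (g * y * g⁻¹) = g * x * g⁻¹ := by
    rw [← hg, ← hxy]
    group
  rw [hxr, Cfsg.Agent.Lib.Helper81.irr_conj_class χ, Cfsg.Agent.Lib.Helper81.irr_conj_class χ',
    Cfsg.Agent.Lib.Helper76.card_centralizer_conj] at hmain
  exact hmain

end KleinNilCongr

end Cfsg.Agent.Lib.Helper79
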