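import Mathlib
import Cfsg.Agent.Lib.Helper79.KleinNilCongr
import Cfsg.Agent.Lib.Helper77.MajorNV
import Cfsg.Agent.Lib.Helper77.IndPairs
import Cfsg.Agent.Lib.Helper77.IdemSet
import Cfsg.Agent.S4637

/-!
# The dichotomy for blocks with Klein four defect groups

A `2`-block with a Klein four defect group has four characters and defect two, and is either of
nilpotent type (one Brauer character; the characters agree on `2`-regular elements and satisfy
the congruences of `klein_nil_congr`) or of rank three type (three Brauer characters; a sign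
structure on `2`-singular elements).
-/

set_option autoImplicit false
set_option linter.unusedSectionVars false
set_option linter.style.haveILetI false

namespace Cfsg.Agent.Lib.Helper79

open Cfsg Cfsg.Agent.Lib.Helper16 Cfsg.Agent.Lib.Helper77 Cfsg.Agent.Lib.Helper81

section KleinDich

variable {K : Type*} [Group K] [Fintype K] {M : Ideal Cfsg.AlgInt}

/-- **Dichotomy for Klein four defect groups.** -/
theorem klein_dichotomy (hM : Cfsg.IsPModular 2 M) (b : Set (Cfsg.IrrCharacter K))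
    (hb : Cfsg.IsPBlock M b) (D : Subgroup K) (hD : Cfsg.IsDefectGroup 2 M b D)
    (hV : IsKleinFour D) :
    Nat.card b = 4 ∧ Cfsg.blockDefect 2 b = 2 ∧
    ((Cfsg.blockRank 2 b = 1 ∧
      (∀ χ ∈ b, ∀ χ' ∈ b, ∀ s : K, ¬ 2 ∣ orderOf s → (χ : K → ℂ) s = (χ' : K → ℂ) s) ∧
      (∀ χ ∈ b, ∀ χ' ∈ b, ∀ x : K,
        MemLocalRing M (((χ : K → ℂ) x - (χ' : K → ℂ) x) / 2) ∧
        MemLocalRing M (2 * ((χ : K → ℂ) x - (χ' : K → ℂ) x) /
          (Nat.card (Subgroup.centralizer ({x} : Set K)) : ℂ)))) ∨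
     (Cfsg.blockRank 2 b = 3 ∧
      ∃ (δ : Cfsg.IrrCharacter K → ℤ) (χ₀ : Cfsg.IrrCharacter K), χ₀ ∈ b ∧
        (∀ χ ∈ b, δ χ = 1 ∨ δ χ = -1) ∧
        (∀ χ ∈ b, ∀ x : K, 2 ∣ orderOf x → (χ : K → ℂ) x = (δ χ : ℂ) * (χ₀ : K → ℂ) x) ∧
        (∀ s : K, ¬ 2 ∣ orderOf s → ∑ᶠ χ ∈ b, (δ χ : ℂ) * (χ : K → ℂ) s = 0))) := by
  classical
  haveI : Fact (Nat.Prime 2) := ⟨Nat.prime_two⟩
  have hMp := isPrime_of_isPModular hM
  have hcard : Nat.card D = 4 := hV.card_four
  have hab : ∀ x ∈ D, ∀ y ∈ D, x * y = y * x := by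
    intro x hx y hy
    have h1 := mul_comm_of_exponent_two hV.exponent_two (⟨x, hx⟩ : D) ⟨y, hy⟩
    exact congrArg Subtype.val h1
  have hexp : ∀ x ∈ D, x * x = 1 := by
    intro x hx
    have h1 : (⟨x, hx⟩ : D) ^ 2 = 1 := by
      rw [← hV.exponent_two]
      exact Monoid.pow_exponent_eq_one _
    have h2 := congrArg Subtype.val h1
    simpa [pow_two] using h2
  have hk : Nat.card b = 4 := card_block_of_defect_two hM b hb D hD hcard
  have hdef : Cfsg.blockDefect 2 b = 2 := by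
    have h := card_isDefectGroup hM b hb D hD
    rw [hcard] at h
    have h2 : (2 : ℕ) ^ 2 = 2 ^ Cfsg.blockDefect 2 b := by rw [← h]; norm_num
    exact (Nat.pow_right_injective (le_refl 2) h2).symm
  obtain ⟨e, hmax⟩ := exists_isMaximalBrauerPair_of_isDefectGroup hM hb hD
  have he : Cfsg.IsInducedBlock M (Subgroup.centralizer (D : Set K)) e b :=
    Cfsg.Agent.Lib.Helper32.isInducedBlock_of_isBrauerPairOf hM hmax.1
  obtain ⟨T, hTdef⟩ : ∃ T : Subgroup K, T = Subgroup.normalizer (D : Set K) ⊓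
      blockStab (Subgroup.centralizer (D : Set K)) e := ⟨_, rfl⟩
  have hT : ∀ g : K, g ∈ T ↔ (g ∈ Subgroup.normalizer (D : Set K) ∧
      Cfsg.StabilizesBlock (Subgroup.centralizer (D : Set K)) e g) := by
    intro g
    rw [hTdef, Subgroup.mem_inf]
    rfl
  obtain ⟨he13, -, hrank⟩ := Cfsg.Agent.S4637.result M hM b hb D hD hV e he T hT _ rfl
  rcases he13 with h1 | h3
  · have hstab : ∀ x : K, x ∈ Subgroup.normalizer (D : Set K) →
        Cfsg.StabilizesBlock (Subgroup.centralizer (D : Set K)) e x →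
        x ∈ Subgroup.centralizer (D : Set K) := by
      intro x hxN hxS
      exact (Subgroup.relIndex_eq_one.mp h1) ((hT x).mpr ⟨hxN, hxS⟩)
    have hr1 : Cfsg.blockRank 2 b = 1 := by rw [hrank, h1]
    exact ⟨hk, hdef, Or.inl ⟨hr1, equal_regular_of_rank_one hM b hb hr1 (Or.inr ⟨hdef, hk⟩),
      klein_nil_congr hM b D e hmax hcard hab hexp hstab⟩⟩
  · have hr3 : Cfsg.blockRank 2 b = 3 := by rw [hrank, h3]
    obtain ⟨y, hy, hyD, hmajor⟩ := exists_pRegular_major hM b hb D hD
    obtain ⟨u, huD, hu1⟩ : ∃ u ∈ D, u ≠ 1 := by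
      have hnt : Nontrivial D := by
        rw [← Finite.one_lt_card_iff_nontrivial, hcard]
        norm_num
      obtain ⟨u, hu⟩ := exists_ne (1 : D)
      exact ⟨u, u.2, fun h => hu (Subtype.ext h)⟩
    have hx₀ : 2 ∣ orderOf (u * y) := by
      have hu2 : orderOf u = 2 := orderOf_eq_prime (by rw [pow_two]; exact hexp u huD) hu1
      have hcomm : Commute u y := hyD u huD
      have hcop : Nat.Coprime (orderOf u) (orderOf y) := by
        rw [hu2]
        exact (Nat.Prime.coprime_iff_not_dvd Nat.prime_two).mpr hy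
      rw [hcomm.orderOf_mul_eq_mul_orderOf_of_coprime hcop, hu2]
      exact Dvd.intro _ rfl
    have hx₀B := hmajor u huD (fun d hd => hab d hd u huD)
    obtain ⟨δ, χ₀, hχ₀, hδ1, hδ, hsing, hsum⟩ :=
      klein_sign_structure hM b hb hk hdef hr3 (u * y) hx₀ hx₀B
    exact ⟨hk, hdef, Or.inr ⟨hr3, δ, χ₀, hχ₀, hδ, hsing, hsum⟩⟩

/-- a map between types that restricts to a bijection between two finite sets of the same
cardinality -/
theorem exists_bijOn_of_card_eq {α β : Type*} (s : Set α) (t : Set β) [Finite s] [Finite t]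
    (b₀ : β) (h : Nat.card s = Nat.card t) : ∃ f : α → β, Set.BijOn f s t := by
  classical
  obtain ⟨e⟩ := (Finite.card_eq (α := s) (β := t)).mp h
  refine ⟨fun a => if ha : a ∈ s then (e ⟨a, ha⟩ : β) else b₀, ?_, ?_, ?_⟩
  · intro a ha
    simp only [dif_pos ha]
    exact (e ⟨a, ha⟩).2
  · intro a ha a' ha' heq
    simp only [dif_pos ha, dif_pos ha'] at heq
    have := e.injective (Subtype.ext heq)
    exact congrArg Subtype.val this
  · intro y hy
    refine ⟨(e.symm ⟨y, hy⟩ : α), (e.symm ⟨y, hy⟩).2, ?_⟩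
    simp only [dif_pos (e.symm ⟨y, hy⟩).2]
    simp

end KleinDich

end Cfsg.Agent.Lib.Helper79
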