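import Mathlib
import Cfsg.Agent.Lib.Helper76.BlockCount
import Cfsg.Agent.Lib.Helper80.Orthogonality
import Cfsg.Agent.Lib.Helper80.CharKer
import Cfsg.Agent.Lib.Helper84.PCoreBasic
import Cfsg.Agent.S0912

/-!
# Blocks of a group with a normal Sylow `p`-subgroup

If `Q` is a normal Sylow `p`-subgroup of `H`, every block of `H` has full defect, and the number
of blocks equals the number of `p`-regular classes contained in the centralizer of `Q`.
-/

set_option autoImplicit false

namespace Cfsg.Agent.Lib.Helper79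

open Cfsg Cfsg.Agent.Lib.Helper16

open scoped ComplexConjugate

section SylowBlocks

variable {H : Type*} [Group H] [Finite H] {p : ℕ} [Fact p.Prime] {M : Ideal Cfsg.AlgInt}

omit [Fact p.Prime] in
/-- The `p`-part of the order of a normal Sylow subgroup. -/
theorem factorization_card_of_not_dvd_index (Q : Subgroup H) (hQi : ¬ p ∣ Q.index) :
    (Nat.card H).factorization p = (Nat.card Q).factorization p := by
  have h1 := Q.card_mul_index
  rw [← h1, Nat.factorization_mul Nat.card_pos.ne' Subgroup.index_ne_zero_of_finite]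
  simp [Nat.factorization_eq_zero_of_not_dvd hQi]

/-- Every block of a group with a normal Sylow `p`-subgroup has full defect. -/
theorem blockDefect_of_normal_sylow (hM : Cfsg.IsPModular p M) (Q : Subgroup H) [hQn : Q.Normal]
    (hQ : IsPGroup p Q) (hQi : ¬ p ∣ Q.index) (b : Set (Cfsg.IrrCharacter H))
    (hb : Cfsg.IsPBlock M b) :
    Cfsg.blockDefect p b = (Nat.card H).factorization p := by
  classical
  have hMp := isPrime_of_isPModular hM
  have hp : p.Prime := Fact.out
  let _ : Fintype H := Fintype.ofFinite H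
  obtain ⟨Db, hDb⟩ := Cfsg.Agent.Lib.Helper77.exists_isDefectGroup p hMp b hb
  have h1 : Cfsg.pCore p H ≤ Db := Cfsg.Agent.S0912.result p M hM b hb Db hDb
  have h2 : Q ≤ Cfsg.pCore p H := Cfsg.Agent.Lib.Helper84.le_pCore hQn hQ
  have hcard := Cfsg.Agent.Lib.Helper77.card_isDefectGroup hM b hb Db hDb
  have h3 : Nat.card Q ∣ Nat.card Db := Subgroup.card_dvd_of_le (h2.trans h1)
  rw [hcard] at h3
  have h4 : (Nat.card Q).factorization p ≤ Cfsg.blockDefect p b := by
    have := (Nat.factorization_le_iff_dvd Nat.card_pos.ne' (pow_ne_zero _ hp.ne_zero)).mpr h3 p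
    simpa [hp.factorization_pow] using this
  have h5 : Cfsg.blockDefect p b ≤ (Nat.card H).factorization p := by
    unfold Cfsg.blockDefect
    exact Nat.sub_le _ _
  rw [factorization_card_of_not_dvd_index Q hQi]
  rw [factorization_card_of_not_dvd_index Q hQi] at h5
  omega

omit [Finite H] [Fact p.Prime] in
/-- The class predicate (`p`-regular and centralizing `Q`) is conjugation invariant. -/
theorem regular_cent_conj (Q : Subgroup H) [hQn : Q.Normal] (x g : H)
    (h : ¬ p ∣ orderOf g ∧ g ∈ Subgroup.centralizer (Q : Set H)) :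
    ¬ p ∣ orderOf (x * g * x⁻¹) ∧ x * g * x⁻¹ ∈ Subgroup.centralizer (Q : Set H) := by
  refine ⟨?_, ?_⟩
  · have e : orderOf (x * g * x⁻¹) = orderOf g := by
      have := (MulAut.conj x).orderOf_eq g
      simpa [MulAut.conj_apply] using this
    rw [e]
    exact h.1
  · rw [Subgroup.mem_centralizer_iff]
    intro q hq
    have hq' : x⁻¹ * q * x ∈ Q := by
      have := hQn.conj_mem q hq x⁻¹
      simpa using this
    have h1 := (Subgroup.mem_centralizer_iff.mp h.2) _ hq'
    calc q * (x * g * x⁻¹) = x * ((x⁻¹ * q * x) * g) * x⁻¹ := by group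
      _ = x * (g * (x⁻¹ * q * x)) * x⁻¹ := by rw [h1]
      _ = x * g * x⁻¹ * q := by group

/-- A `p`-regular element outside the centralizer of the normal Sylow subgroup has a centralizer
of smaller `p`-part. -/
theorem factorization_centralizer_lt (Q : Subgroup H) [hQn : Q.Normal]
    (hQ : IsPGroup p Q) (hQi : ¬ p ∣ Q.index) (g : H)
    (hg : g ∉ Subgroup.centralizer (Q : Set H)) :
    (Nat.card (Subgroup.centralizer ({g} : Set H))).factorization p <
      (Nat.card H).factorization p := by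
  classical
  have hp : p.Prime := Fact.out
  by_contra hcon
  push Not at hcon
  apply hg
  set C := Subgroup.centralizer ({g} : Set H) with hC
  -- the p-part of `C` is the order of `Q ⊓ C`
  have h1 : ¬ p ∣ (Q.subgroupOf C).index := by
    intro hdvd
    exact hQi (hdvd.trans (Subgroup.relIndex_dvd_index_of_normal Q C))
  have h2 : (Nat.card C).factorization p = (Nat.card (Q.subgroupOf C)).factorization p :=
    factorization_card_of_not_dvd_index (Q.subgroupOf C) h1
  have h3 : IsPGroup p (Q.subgroupOf C) := hQ.comap_subtype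
  obtain ⟨j, hj⟩ := IsPGroup.iff_card.mp h3
  obtain ⟨a, ha⟩ := IsPGroup.iff_card.mp hQ
  have h4 : (Nat.card H).factorization p = a := by
    rw [factorization_card_of_not_dvd_index Q hQi, ha, hp.factorization_pow]
    simp
  have h5 : (Nat.card C).factorization p = j := by
    rw [h2, hj, hp.factorization_pow]
    simp
  have h6 : Nat.card (Q.subgroupOf C) = Nat.card (Q ⊓ C : Subgroup H) := by
    rw [← Subgroup.inf_subgroupOf_right]
    exact Nat.card_congr (Subgroup.subgroupOfEquivOfLe inf_le_right).toEquiv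
  have h7 : Nat.card Q ≤ Nat.card (Q ⊓ C : Subgroup H) := by
    rw [← h6, hj, ha]
    apply Nat.pow_le_pow_right hp.pos
    omega
  have h8 : (Q ⊓ C : Subgroup H) = Q := Subgroup.eq_of_le_of_card_ge inf_le_left h7
  have h9 : Q ≤ C := by
    rw [← h8]
    exact inf_le_right
  rw [Subgroup.mem_centralizer_iff]
  intro q hq
  have := h9 hq
  rw [hC, Subgroup.mem_centralizer_iff] at this
  exact (this g (Set.mem_singleton g)).symm

/-- In a group with a normal Sylow `p`-subgroup `Q` there are at most as many blocks as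
`p`-regular classes inside the centralizer of `Q`. -/
theorem card_blocks_le_of_normal_sylow (hM : Cfsg.IsPModular p M) (Q : Subgroup H)
    [hQn : Q.Normal] (hQ : IsPGroup p Q) (hQi : ¬ p ∣ Q.index) :
    Nat.card {b : Set (Cfsg.IrrCharacter H) // Cfsg.IsPBlock M b} ≤
      Nat.card {C : ConjClasses H // ∃ g : H, ConjClasses.mk g = C ∧
        (¬ p ∣ orderOf g ∧ g ∈ Subgroup.centralizer (Q : Set H))} := by
  classical
  have hMp := isPrime_of_isPModular hM
  let _ : Fintype H := Fintype.ofFinite H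
  have key := Cfsg.Agent.Lib.Helper76.card_blocks_le_card_classes hM (G := H)
    (fun _ => True) (fun g => ¬ p ∣ orderOf g ∧ g ∈ Subgroup.centralizer (Q : Set H))
    (fun x g h => regular_cent_conj Q x g h) (by
      intro B B' hB _ hB' _ χ hχ g hg
      by_cases hs : p ∣ orderOf g
      · rw [Cfsg.Agent.Lib.Helper77.blockCoeff_eq_zero_of_singular hM B hB hs, zero_mul]
        exact memLocalIdeal_zero hMp
      · have hgc : g ∉ Subgroup.centralizer (Q : Set H) := fun h => hg ⟨hs, h⟩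
        have hlt := factorization_centralizer_lt Q hQ hQi g hgc
        rw [← blockDefect_of_normal_sylow hM Q hQ hQi B' hB'] at hlt
        have h1 := Cfsg.Agent.Lib.Helper76.memLocalIdeal_centralChar_of_defect_lt hM B' hB' χ hχ g
          hlt
        exact memLocalIdeal_mul_left hMp
          ((Cfsg.Agent.Lib.Helper77.blockCoeff_spec hMp B hB).1 g) h1)
  refine le_trans (le_of_eq ?_) key
  exact Nat.card_congr (Equiv.subtypeEquivRight (fun b => by simp))

omit [Finite H] in
/-- Two `p`-regular elements of the centralizer of `Q` with conjugate images in `H ⧸ Q` are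
conjugate. -/
theorem isConj_of_isConj_mk (Q : Subgroup H) [hQn : Q.Normal] (hQ : IsPGroup p Q) {g h : H}
    (hg : ¬ p ∣ orderOf g ∧ g ∈ Subgroup.centralizer (Q : Set H))
    (hh : ¬ p ∣ orderOf h ∧ h ∈ Subgroup.centralizer (Q : Set H))
    (hc : IsConj (h : H ⧸ Q) (g : H ⧸ Q)) : IsConj h g := by
  have hp : p.Prime := Fact.out
  obtain ⟨ybar, hy⟩ := isConj_iff.mp hc
  obtain ⟨y, rfl⟩ := QuotientGroup.mk_surjective ybar
  have hh' := regular_cent_conj Q y h hh
  obtain ⟨h', hh'def⟩ : ∃ h' : H, h' = y * h * y⁻¹ := ⟨_, rfl⟩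
  rw [← hh'def] at hh'
  have hq : g⁻¹ * h' ∈ Q := by
    rw [← QuotientGroup.eq, ← hy, hh'def]
    rfl
  have hq2 := (Subgroup.mem_centralizer_iff.mp hg.2) _ hq
  have hcomm : Commute g⁻¹ h' := by
    show g⁻¹ * h' = h' * g⁻¹
    have e1 : g⁻¹ * h' * g = h' := by
      rw [hq2]
      group
    calc g⁻¹ * h' = (g⁻¹ * h' * g) * g⁻¹ := by group
      _ = h' * g⁻¹ := by rw [e1]
  have hord : orderOf (g⁻¹ * h') ∣ Nat.lcm (orderOf g⁻¹) (orderOf h') := hcomm.orderOf_mul_dvd_lcm
  obtain ⟨k, hk⟩ := IsPGroup.iff_orderOf.mp hQ ⟨_, hq⟩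
  rw [Subgroup.orderOf_mk] at hk
  have hk0 : k = 0 := by
    by_contra hk0
    have h1 : p ∣ Nat.lcm (orderOf g⁻¹) (orderOf h') := (dvd_pow_self p hk0).trans (hk ▸ hord)
    have h2 := h1.trans (Nat.lcm_dvd_mul _ _)
    rcases (hp.dvd_mul).mp h2 with h3 | h3
    · rw [orderOf_inv] at h3
      exact hg.1 h3
    · exact hh'.1 h3
  have h1 : g⁻¹ * h' = 1 := by
    rw [← orderOf_eq_one_iff, hk, hk0, pow_zero]
  have h2 : h' = g := by
    rw [inv_mul_eq_one] at h1
    exact h1.symm
  exact isConj_iff.mpr ⟨y, hh'def ▸ h2⟩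

/-- In a group with a normal Sylow `p`-subgroup `Q` there are at least as many blocks as
`p`-regular classes inside the centralizer of `Q`. -/
theorem card_classes_le_of_normal_sylow (hM : Cfsg.IsPModular p M) (Q : Subgroup H)
    [hQn : Q.Normal] (hQ : IsPGroup p Q) (hQi : ¬ p ∣ Q.index) :
    Nat.card {C : ConjClasses H // ∃ g : H, ConjClasses.mk g = C ∧
        (¬ p ∣ orderOf g ∧ g ∈ Subgroup.centralizer (Q : Set H))} ≤
      Nat.card {b : Set (Cfsg.IrrCharacter H) // Cfsg.IsPBlock M b} := by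
  classical
  have hMp := isPrime_of_isPModular hM
  have hp : p.Prime := Fact.out
  let _ : Fintype H := Fintype.ofFinite H
  let _ : Fintype (H ⧸ Q) := Fintype.ofFinite _
  let _ : Fintype (Cfsg.IrrCharacter H) := Fintype.ofFinite _
  let _ : Fintype (Cfsg.IrrCharacter (H ⧸ Q)) := Fintype.ofFinite _
  let _ : Fintype {b : Set (Cfsg.IrrCharacter H) // Cfsg.IsPBlock M b} := Fintype.ofFinite _
  let _ : Fintype {C : ConjClasses H // ∃ g : H, ConjClasses.mk g = C ∧
        (¬ p ∣ orderOf g ∧ g ∈ Subgroup.centralizer (Q : Set H))} := Fintype.ofFinite _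
  rw [Nat.card_eq_fintype_card, Nat.card_eq_fintype_card]
  have hg : ∀ C : {C : ConjClasses H // ∃ g : H, ConjClasses.mk g = C ∧
        (¬ p ∣ orderOf g ∧ g ∈ Subgroup.centralizer (Q : Set H))},
      ∃ g : H, ConjClasses.mk g = C.1 ∧
        (¬ p ∣ orderOf g ∧ g ∈ Subgroup.centralizer (Q : Set H)) := fun C => C.2
  choose r hr using hg
  have hχ : ∀ b : {b : Set (Cfsg.IrrCharacter H) // Cfsg.IsPBlock M b},
      ∃ χ : Cfsg.IrrCharacter H, χ ∈ b.1 := fun b => IsPBlock.nonempty hMp b.2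
  choose χ hχ using hχ
  let β : Cfsg.IrrCharacter (H ⧸ Q) → {b : Set (Cfsg.IrrCharacter H) // Cfsg.IsPBlock M b} :=
    fun ψ => ⟨Cfsg.blockOf M ((Cfsg.Agent.Lib.Helper80.inflateIrr Q ψ).1 : H → ℂ), ⟨_, rfl⟩⟩
  let c : {C : ConjClasses H // ∃ g : H, ConjClasses.mk g = C ∧
        (¬ p ∣ orderOf g ∧ g ∈ Subgroup.centralizer (Q : Set H))} →
      Cfsg.IrrCharacter (H ⧸ Q) → ℂ := fun C ψ =>
    (ψ : H ⧸ Q → ℂ) 1 * conj ((ψ : H ⧸ Q → ℂ) ((r C : H) : H ⧸ Q)) *
      (Nat.card (H ⧸ Q) : ℂ)⁻¹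
  let u : {C : ConjClasses H // ∃ g : H, ConjClasses.mk g = C ∧
        (¬ p ∣ orderOf g ∧ g ∈ Subgroup.centralizer (Q : Set H))} → ℂ := fun C =>
    ((Subgroup.centralizer ({((r C : H) : H ⧸ Q)} : Set (H ⧸ Q))).index : ℂ) *
      ((Subgroup.centralizer ({r C} : Set H)).index : ℂ)⁻¹
  let E : Matrix {C : ConjClasses H // ∃ g : H, ConjClasses.mk g = C ∧
        (¬ p ∣ orderOf g ∧ g ∈ Subgroup.centralizer (Q : Set H))}
      {b : Set (Cfsg.IrrCharacter H) // Cfsg.IsPBlock M b} ℂ :=
    fun C b => u C * ∑ ψ : Cfsg.IrrCharacter (H ⧸ Q), if β ψ = b then c C ψ else 0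
  let Ω : Matrix {b : Set (Cfsg.IrrCharacter H) // Cfsg.IsPBlock M b}
      {C : ConjClasses H // ∃ g : H, ConjClasses.mk g = C ∧
        (¬ p ∣ orderOf g ∧ g ∈ Subgroup.centralizer (Q : Set H))} ℂ :=
    fun b C' => Cfsg.centralChar (χ b : H → ℂ) (r C')
  apply Cfsg.Agent.Lib.Helper76.card_le_of_det_ne_zero E Ω
  apply Cfsg.Agent.Lib.Helper76.det_ne_zero_of_congr_one hMp
  intro C C'
  have hentry : (E * Ω) C C' =
      u C * ∑ ψ : Cfsg.IrrCharacter (H ⧸ Q), c C ψ * Ω (β ψ) C' := by
    rw [Matrix.mul_apply]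
    simp only [E, mul_assoc]
    rw [← Finset.mul_sum]
    congr 1
    simp only [Finset.sum_mul]
    rw [Finset.sum_comm]
    refine Finset.sum_congr rfl fun ψ _ => ?_
    simp only [ite_mul, zero_mul]
    rw [Finset.sum_ite_eq]
    simp
  -- nonvanishing / divisibility facts
  have hkC : ∀ C : {C : ConjClasses H // ∃ g : H, ConjClasses.mk g = C ∧
        (¬ p ∣ orderOf g ∧ g ∈ Subgroup.centralizer (Q : Set H))},
      ¬ p ∣ (Subgroup.centralizer ({r C} : Set H)).index := by
    intro C hdvd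
    apply hQi
    refine hdvd.trans (Subgroup.index_dvd_of_le ?_)
    intro q hq
    rw [Subgroup.mem_centralizer_iff]
    intro x hx
    rw [Set.mem_singleton_iff] at hx
    rw [hx]
    exact ((Subgroup.mem_centralizer_iff.mp (hr C).2.2) q hq).symm
  have hcardq : ¬ p ∣ Nat.card (H ⧸ Q) := by
    rw [← Subgroup.index_eq_card]
    exact hQi
  have hone : (1 : Matrix {C : ConjClasses H // ∃ g : H, ConjClasses.mk g = C ∧
        (¬ p ∣ orderOf g ∧ g ∈ Subgroup.centralizer (Q : Set H))}
      {C : ConjClasses H // ∃ g : H, ConjClasses.mk g = C ∧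
        (¬ p ∣ orderOf g ∧ g ∈ Subgroup.centralizer (Q : Set H))} ℂ) C C' =
      u C * ∑ ψ : Cfsg.IrrCharacter (H ⧸ Q), c C ψ *
        Cfsg.centralChar ((Cfsg.Agent.Lib.Helper80.inflateIrr Q ψ).1 : H → ℂ) (r C') := by
    have e1 : ∀ ψ : Cfsg.IrrCharacter (H ⧸ Q), c C ψ *
        Cfsg.centralChar ((Cfsg.Agent.Lib.Helper80.inflateIrr Q ψ).1 : H → ℂ) (r C') =
        (((Subgroup.centralizer ({r C'} : Set H)).index : ℂ) * (Nat.card (H ⧸ Q) : ℂ)⁻¹) *
          ((ψ : H ⧸ Q → ℂ) ((r C' : H) : H ⧸ Q) *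
            conj ((ψ : H ⧸ Q → ℂ) ((r C : H) : H ⧸ Q))) := by
      intro ψ
      have h1 : (ψ : H ⧸ Q → ℂ) 1 ≠ 0 := Cfsg.Agent.Lib.Helper80.char_one_ne_zero ψ.2
      simp only [c]
      unfold Cfsg.centralChar
      rw [Cfsg.Agent.Lib.Helper80.inflateIrr_apply, Cfsg.Agent.Lib.Helper80.inflateIrr_apply,
        QuotientGroup.mk_one]
      field_simp
    rw [Finset.sum_congr rfl (fun ψ _ => e1 ψ), ← Finset.mul_sum,
      Cfsg.Agent.Lib.Helper80.second_orthogonality_aux, Matrix.one_apply]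
    by_cases hCC : C = C'
    · subst hCC
      rw [if_pos rfl, if_pos (IsConj.refl _)]
      simp only [u]
      have h2 := (Subgroup.centralizer ({((r C : H) : H ⧸ Q)} : Set (H ⧸ Q))).index_mul_card
      have h3 : ((Subgroup.centralizer ({r C} : Set H)).index : ℂ) ≠ 0 :=
        Nat.cast_ne_zero.mpr Subgroup.index_ne_zero_of_finite
      have h4 : (Nat.card (H ⧸ Q) : ℂ) ≠ 0 := Nat.cast_ne_zero.mpr Nat.card_pos.ne'
      have h5 : ((Subgroup.centralizer ({((r C : H) : H ⧸ Q)} : Set (H ⧸ Q))).index : ℂ) *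
          (Nat.card (Subgroup.centralizer ({((r C : H) : H ⧸ Q)} : Set (H ⧸ Q))) : ℂ) =
          (Nat.card (H ⧸ Q) : ℂ) := by
        exact_mod_cast h2
      field_simp
      rw [← h5]
    · rw [if_neg hCC, if_neg, mul_zero, mul_zero]
      intro hconj
      apply hCC
      have := isConj_of_isConj_mk Q hQ (hr C).2 (hr C').2 hconj
      apply Subtype.ext
      rw [← (hr C).1, ← (hr C').1]
      exact (ConjClasses.mk_eq_mk_iff_isConj.mpr this).symm
  rw [hentry, hone, ← mul_sub, ← Finset.sum_sub_distrib]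
  have hu : MemLocalRing M (u C) :=
    memLocalRing_mul hMp (memLocalRing_natCast hMp _) (memLocalRing_inv_natCast hM (hkC C))
  refine memLocalIdeal_mul_left hMp hu (memLocalIdeal_sum hMp _ _ fun ψ _ => ?_)
  rw [← mul_sub]
  have hc : MemLocalRing M (c C ψ) := by
    refine memLocalRing_mul hMp (memLocalRing_mul hMp
      (Cfsg.Agent.Lib.Helper77.memLocalRing_irr_apply hMp ψ 1) ?_)
      (memLocalRing_inv_natCast hM hcardq)
    rw [← Cfsg.Agent.Lib.Helper80.char_inv_eq_conj
      (Cfsg.Agent.Lib.Helper80.isCharacter_of_isIrrCharacter ψ.2)]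
    exact Cfsg.Agent.Lib.Helper77.memLocalRing_irr_apply hMp ψ _
  refine memLocalIdeal_mul_left hMp hc ?_
  have hsame : Cfsg.SameBlock M ((Cfsg.Agent.Lib.Helper80.inflateIrr Q ψ).1 : H → ℂ)
      (χ (β ψ) : H → ℂ) := hχ (β ψ)
  have := memLocalIdeal_neg (hsame (r C'))
  rwa [neg_sub] at this

/-- **Blocks of a group with a normal Sylow `p`-subgroup.** Their number is the number of
`p`-regular classes contained in the centralizer of the Sylow subgroup. -/
theorem card_blocks_eq_of_normal_sylow (hM : Cfsg.IsPModular p M) (Q : Subgroup H)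
    [hQn : Q.Normal] (hQ : IsPGroup p Q) (hQi : ¬ p ∣ Q.index) :
    Nat.card {b : Set (Cfsg.IrrCharacter H) // Cfsg.IsPBlock M b} =
      Nat.card {C : ConjClasses H // ∃ g : H, ConjClasses.mk g = C ∧
        (¬ p ∣ orderOf g ∧ g ∈ Subgroup.centralizer (Q : Set H))} :=
  le_antisymm (card_blocks_le_of_normal_sylow hM Q hQ hQi)
    (card_classes_le_of_normal_sylow hM Q hQ hQi)

/-- Every block of a group with a normal Sylow `p`-subgroup `Q` has defect group `Q`. -/
theorem isDefectGroup_of_normal_sylow (hM : Cfsg.IsPModular p M) (Q : Subgroup H)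
    [hQn : Q.Normal] (hQ : IsPGroup p Q) (hQi : ¬ p ∣ Q.index) (b : Set (Cfsg.IrrCharacter H))
    (hb : Cfsg.IsPBlock M b) : Cfsg.IsDefectGroup p M b Q := by
  classical
  have hMp := isPrime_of_isPModular hM
  have hp : p.Prime := Fact.out
  let _ : Fintype H := Fintype.ofFinite H
  obtain ⟨Db, hDb⟩ := Cfsg.Agent.Lib.Helper77.exists_isDefectGroup p hMp b hb
  have h1 : Cfsg.pCore p H ≤ Db := Cfsg.Agent.S0912.result p M hM b hb Db hDb
  have h2 : Q ≤ Cfsg.pCore p H := Cfsg.Agent.Lib.Helper84.le_pCore hQn hQ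
  have hcard := Cfsg.Agent.Lib.Helper77.card_isDefectGroup hM b hb Db hDb
  obtain ⟨a, ha⟩ := IsPGroup.iff_card.mp hQ
  have h4 : (Nat.card H).factorization p = a := by
    rw [factorization_card_of_not_dvd_index Q hQi, ha, hp.factorization_pow]
    simp
  have h5 : Nat.card Db ≤ Nat.card Q := by
    rw [hcard, ha, blockDefect_of_normal_sylow hM Q hQ hQi b hb, h4]
  have h6 : Q = Db := Subgroup.eq_of_le_of_card_ge (h2.trans h1) h5
  rw [h6]
  exact hDb

end SylowBlocks

end Cfsg.Agent.Lib.Helper79
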