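import Mathlib
import Cfsg.Prelude.Def_Blocks
import Cfsg.Agent.Lib.Helper16.ClassSum
import Cfsg.Agent.Lib.Helper16.Osima
import Cfsg.Agent.Lib.Helper77.BlockIdem
import Cfsg.Agent.Lib.Helper78.BlockOrth
import Cfsg.Agent.Lib.Helper79.CharSum
import Cfsg.Agent.Lib.Helper79.ClassMult
import Cfsg.Agent.Lib.Helper79.LocalGlobal

/-!
# Blocks for two different primes

For a `p`-block `Bp`, a `q`-block `Bq` and a `p`-singular element `u` of a group without
elements of order `p * q`, the sum of `χ(1) χ(u)` over `Bp ∩ Bq` is `q ^ b` times a local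
integer at the maximal ideal defining `Bq` (`q ^ b` the `q`-part of the group order).
-/

set_option autoImplicit false

namespace Cfsg.Agent.Lib.Helper79

open Cfsg Cfsg.Agent.Lib.Helper16

section

variable {G : Type*} [Group G] [Fintype G]

/-- If no element has order `p * q`, the class of a `p`-singular element has size divisible by
the full power of `q` dividing the group order. -/
theorem pow_dvd_index_centralizer_of_no_mul {p q : ℕ} (hp : p.Prime) (hq : q.Prime)
    (hpq : p ≠ q) (hno : ∀ g : G, orderOf g ≠ p * q) {h : G} (hh : p ∣ orderOf h) :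
    q ^ (Nat.card G).factorization q ∣ (Subgroup.centralizer ({h} : Set G)).index := by
  have hnd : ¬ q ∣ Nat.card (Subgroup.centralizer ({h} : Set G)) := by
    intro hdvd
    have : Fact q.Prime := ⟨hq⟩
    obtain ⟨t, ht⟩ :=
      exists_prime_orderOf_dvd_card' (G := Subgroup.centralizer ({h} : Set G)) q hdvd
    have ht' : orderOf (t : G) = q := by rw [Subgroup.orderOf_coe]; exact ht
    have hcomm : Commute h (t : G) := by
      have h1 := t.2
      rw [Subgroup.mem_centralizer_iff] at h1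
      exact h1 h (Set.mem_singleton h)
    have ho : orderOf (h ^ (orderOf h / p)) = p :=
      orderOf_pow_orderOf_div (orderOf_pos h).ne' hh
    have hcomm2 : Commute (h ^ (orderOf h / p)) (t : G) := hcomm.pow_left _
    have h2 := hcomm2.orderOf_mul_eq_mul_orderOf_of_coprime
      (by rw [ho, ht']; exact (Nat.coprime_primes hp hq).mpr hpq)
    rw [ho, ht'] at h2
    exact hno _ h2
  have h1 : q ^ (Nat.card G).factorization q ∣
      (Subgroup.centralizer ({h} : Set G)).index *
        Nat.card (Subgroup.centralizer ({h} : Set G)) := by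
    rw [Subgroup.index_mul_card]
    exact Nat.ordProj_dvd _ _
  exact (Nat.Coprime.pow_left _ ((Nat.Prime.coprime_iff_not_dvd hq).mpr hnd)).dvd_of_dvd_mul_right
    h1

/-- The sum of `χ(1) χ(u)` over the intersection of a `p`-block and a `q`-block, at a
`p`-singular element `u`, is `q ^ b` times a local integer at `Mq`. -/
theorem twoBlock_sum_local {p q : ℕ} [Fact p.Prime] [Fact q.Prime] (hpq : p ≠ q)
    {Mp Mq : Ideal Cfsg.AlgInt} (hMp : Cfsg.IsPModular p Mp) (hMq : Cfsg.IsPModular q Mq)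
    (hno : ∀ g : G, orderOf g ≠ p * q) (Bp Bq : Set (Cfsg.IrrCharacter G))
    (hBp : Cfsg.IsPBlock Mp Bp) (hBq : Cfsg.IsPBlock Mq Bq) {u : G} (hu : p ∣ orderOf u) :
    Cfsg.MemLocalRing Mq
      ((∑ᶠ χ ∈ Bp ∩ Bq, (Cfsg.charDegree (χ : G → ℂ) : ℂ) * (χ : G → ℂ) u) /
        (q : ℂ) ^ (Nat.card G).factorization q) := by
  classical
  let _ : Fintype (Cfsg.IrrCharacter G) := Fintype.ofFinite _
  have hp : p.Prime := Fact.out
  have hq : q.Prime := Fact.out
  have hprq := isPrime_of_isPModular hMq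
  obtain ⟨hloc, hcl, hom⟩ := Cfsg.Agent.Lib.Helper77.blockCoeff_spec hprq Bq hBq
  obtain ⟨T, hT⟩ : ∃ T : G → ℂ, T = fun g =>
      ∑ χ : Cfsg.IrrCharacter G, if χ ∈ Bp then (χ : G → ℂ) u * (χ : G → ℂ) g else 0 :=
    ⟨_, rfl⟩
  have hTint : ∀ g, IsIntegral ℤ (T g) := by
    intro g
    rw [hT]
    refine IsIntegral.sum _ (fun χ _ => ?_)
    split_ifs
    · exact (irr_isIntegral χ.2 u).mul (irr_isIntegral χ.2 g)
    · exact isIntegral_zero
  have hTcl : ∀ x g : G, T (x * g * x⁻¹) = T g := by
    intro x g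
    rw [hT]
    refine Finset.sum_congr rfl (fun χ _ => ?_)
    rw [irr_conj_eq χ.2]
  have hTreg : ∀ g : G, ¬ p ∣ orderOf g → T g = 0 := by
    intro g hg
    have h1 := Cfsg.Agent.Lib.Helper78.block_orth_singular_regular hMp Bp hBp hu (g := g⁻¹)
      (by rwa [orderOf_inv])
    rw [inv_inv, finsum_mem_eq_sum_ite] at h1
    rw [hT]
    exact h1
  have hkey : ∑ᶠ χ ∈ Bp ∩ Bq, (Cfsg.charDegree (χ : G → ℂ) : ℂ) * (χ : G → ℂ) u =
      ∑ g : G, Cfsg.blockCoeff Bq g * T g := by
    rw [finsum_mem_eq_sum_ite, hT]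
    simp only [Finset.mul_sum]
    rw [Finset.sum_comm]
    refine Finset.sum_congr rfl (fun χ _ => ?_)
    have h1 := hom χ
    unfold Cfsg.Agent.Lib.Helper77.omegaF at h1
    obtain ⟨hχ1, hχpos, -⟩ := irr_charDegree χ.2
    have hne : (χ : G → ℂ) 1 ≠ 0 := by
      rw [hχ1]
      exact_mod_cast hχpos.ne'
    have h2 : ∑ g : G, Cfsg.blockCoeff Bq g * (χ : G → ℂ) g =
        (χ : G → ℂ) 1 * (if χ ∈ Bq then 1 else 0) := by
      rw [← h1]
      field_simp
    by_cases hχp : χ ∈ Bp
    · have h3 : ∑ g : G, Cfsg.blockCoeff Bq g *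
          (if χ ∈ Bp then (χ : G → ℂ) u * (χ : G → ℂ) g else 0) =
          (χ : G → ℂ) u * ∑ g : G, Cfsg.blockCoeff Bq g * (χ : G → ℂ) g := by
        rw [Finset.mul_sum]
        refine Finset.sum_congr rfl (fun g _ => ?_)
        rw [if_pos hχp]
        ring
      rw [h3, h2, hχ1]
      by_cases hχq : χ ∈ Bq
      · rw [if_pos hχq, if_pos ⟨hχp, hχq⟩]
        ring
      · rw [if_neg hχq, if_neg (fun h => hχq h.2)]
        ring
    · rw [if_neg (fun h => hχp h.1)]
      symm
      apply Finset.sum_eq_zero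
      intro g _
      rw [if_neg hχp, mul_zero]
  rw [hkey]
  have hq0 : ((q : ℂ)) ^ (Nat.card G).factorization q ≠ 0 :=
    pow_ne_zero _ (by exact_mod_cast hq.ne_zero)
  have hP : ∀ h : G, Cfsg.MemLocalRing Mq
      (((Subgroup.centralizer ({h} : Set G)).index : ℂ) * (Cfsg.blockCoeff Bq h * T h) /
        (q : ℂ) ^ (Nat.card G).factorization q) := by
    intro h
    by_cases hh : p ∣ orderOf h
    · obtain ⟨l, hl⟩ := pow_dvd_index_centralizer_of_no_mul hp hq hpq hno hh
      rw [hl]
      have e : ((q ^ (Nat.card G).factorization q * l : ℕ) : ℂ) * (Cfsg.blockCoeff Bq h * T h) /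
          (q : ℂ) ^ (Nat.card G).factorization q = (l : ℂ) * (Cfsg.blockCoeff Bq h * T h) := by
        push_cast
        field_simp
      rw [e]
      exact memLocalRing_mul hprq (memLocalRing_natCast hprq l)
        (memLocalRing_mul hprq (hloc h) (memLocalRing_of_isIntegral hprq (hTint h)))
    · rw [hTreg h hh]
      simpa using memLocalRing_zero hprq
  have hfin := sum_class_invariant_mem
    (fun z => Cfsg.MemLocalRing Mq (z / (q : ℂ) ^ (Nat.card G).factorization q))
    (by simpa using memLocalRing_zero hprq)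
    (fun a b ha hb => by
      show Cfsg.MemLocalRing Mq ((a + b) / (q : ℂ) ^ (Nat.card G).factorization q)
      rw [add_div]
      exact memLocalRing_add hprq ha hb)
    (fun g => Cfsg.blockCoeff Bq g * T g)
    (fun x h => by
      show Cfsg.blockCoeff Bq (x * h * x⁻¹) * T (x * h * x⁻¹) = Cfsg.blockCoeff Bq h * T h
      rw [hcl h x, hTcl x h])
    hP Finset.univ (fun _ _ _ => Finset.mem_univ _)
  exact hfin

end

end Cfsg.Agent.Lib.Helper79
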